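import Mathlib
import Cfsg.Prelude.Def_OddOrderLocal

/-!
# S1381 (call by helper22): statement pieces

S1381: `M` maximal, `M = K U M_σ`.  `IsOfTypeII M ↔ K ≠ 1 ∧ U ≠ 1`.

(→) (helper22, in the assembly): `K ≠ ⊥` by `Cfsg.Agent.Lib.Helper93.S89KNE34.main`; if `U = ⊥` then
`⁅M, M⁆ = sigmaCore M` (S1365) and `Helper49.S82Stmt.NDLe` gives `normalizer Ut ≤ M`.
(←) Type-P data `W₁ := K`, `Ut := U`, `W₂ := K* = sigmaCore M ⊓ centralizer K`:
`W1C`, `UC`, `W2C` below, `Helper49.S82Stmt.SelfN`, S1364, S1356, S1365, S1363, S1372; then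
`IsOfTypeF ↥⁅M, M⁆` (`TypeF`) and `fittingHallOf ⁅M, M⁆ = fittingHallOf M` (`FHD`).
Facts for `K ≠ ⊥`, `U ≠ ⊥`: `⁅M, M⁆ = U ⊔ sigmaCore M` (`(Cfsg.Agent.S1365.result ..).1`);
`sigmaCore M` is nilpotent (`Cfsg.Agent.Lib.Helper22.BG147N0.nilpotent_of_U_ne_bot hG hM hKU hU`), so
`sigmaCore M = fittingHallOf M` (`Cfsg.Agent.Lib.Helper57.BG14FHCore.main_of hG M hM
(Cfsg.Agent.S1350.result hG M hM).1 hnil`); `sigmaCore M` is normalized by `M`
(`Cfsg.Agent.Lib.Helper9.BG11b.sigmaCore_normal M`); `U ⊓ (K ⊔ sigmaCore M) = ⊥` (`hKU.compl.2.2.1`);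
`K ⊓ sigmaCore M = ⊥` (coprime orders: `hKU.hall`, `kappa M` is disjoint from `sigma M`; as in
`Cfsg.Agent.Lib.Helper93.S64GLUEA` / the W1DATA piece of S1382).
-/

set_option autoImplicit false

namespace Cfsg.Agent.Lib.Helper22.S81Stmt

universe u

/-- [W1C] (M) `K` is a Hall subgroup of `M` complementing `M' = U M_σ`.  Coprime: `hKU.hall`
(a prime dividing `|K|` is in `kappa M`, so does not divide `K.relIndex M`).  `⁅M, M⁆ ⊓ K = ⊥`:
`x = u * s ∈ K` (`Subgroup.mem_sup`, `sigmaCore M` normal in `M`) gives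
`u = x * s⁻¹ ∈ U ⊓ (K ⊔ sigmaCore M) = ⊥`, then `x = s ∈ K ⊓ sigmaCore M = ⊥`.
`m ∈ M`: `m = u * b` (`hKU.compl.2.2.2`), `b ∈ K ⊔ sigmaCore M` is `s * k`, so `m = (u * s) * k`.
(Same as the W1DATA piece of S1382, `Cfsg.Agent.Lib.Helper49.S82Stmt.W1Data`, without `U = ⊥`.) -/
def W1C : Prop :=
  ∀ {G : Type u} [Group G] [Finite G], Cfsg.IsMinSimpleOddOrder G →
  ∀ (M K U : Subgroup G), IsCoatom M → Cfsg.IsSigmaDecomposition M K U → K ≠ ⊥ →
    (Nat.card ↥K).Coprime (K.relIndex M) ∧ Cfsg.IsComplIn ⁅M, M⁆ K M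

/-- [UC] (M) `U` complements `M_F = M_σ` in `M' = U M_σ` (`U ≠ 1`).  See the header:
`fittingHallOf M = sigmaCore M`, `⁅M, M⁆ = U ⊔ sigmaCore M`; `sigmaCore M ⊓ U = ⊥`; every
element of `U ⊔ sigmaCore M` is `s * u`. -/
def UC : Prop :=
  ∀ {G : Type u} [Group G] [Finite G], Cfsg.IsMinSimpleOddOrder G →
  ∀ (M K U : Subgroup G), IsCoatom M → Cfsg.IsSigmaDecomposition M K U → K ≠ ⊥ → U ≠ ⊥ →
    Cfsg.IsComplIn (Cfsg.fittingHallOf M) U ⁅M, M⁆

/-- [W2C] (M) `C_{M'}(x) = K*` for `x ≠ 1` in `K`.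
`(Cfsg.Agent.S1354.result hG M hM K hKU.cyclic hKU.hall).2 hK1 x hx hx1 : M ⊓ centralizer {x} =
K ⊔ K*` (check its exact form).  `⊇`: `K* ≤ sigmaCore M ≤ ⁅M, M⁆`, `K* ≤ centralizer K`.
`⊆`: `y = k * c` (`K`, `K*` commute), `k = y * c⁻¹ ∈ K ⊓ ⁅M, M⁆ = ⊥` (as in [W1C]). -/
def W2C : Prop :=
  ∀ {G : Type u} [Group G] [Finite G], Cfsg.IsMinSimpleOddOrder G →
  ∀ (M K U : Subgroup G), IsCoatom M → Cfsg.IsSigmaDecomposition M K U → K ≠ ⊥ →
    ∀ x ∈ K, x ≠ 1 → ⁅M, M⁆ ⊓ Subgroup.centralizer ({x} : Set G) =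
      Cfsg.sigmaCore M ⊓ Subgroup.centralizer (K : Set G)

/-- [FHD] (L, 2-3 seats) `(M')_F = M_F` for `K ≠ 1`, `U ≠ 1`.  `M' = U M_σ`, `M_F = M_σ`.
`≥`: `(sigmaCore M).subgroupOf ⁅M, M⁆` is normal, nilpotent, of order prime to its index (`= |U|`,
prime to `|M_σ|`: `(Cfsg.Agent.S1350.result hG M hM).1`), so lies in `fittingHall ↥⁅M, M⁆`
(`le_sSup`).  `≤`: `N := fittingHall ↥⁅M, M⁆` is nilpotent (`≤ fittingSubgroup`,
`Cfsg.Agent.Lib.Helper78.Fitting.fitting_isNilpotent`) of order prime to its index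
(`Cfsg.Agent.Lib.Helper17.S64FHHALL.main`).  Either: `N.map _` is normalized by `M` (the family
defining `fittingHall` is invariant under the automorphisms of `↥⁅M, M⁆` induced by `M`) and its
order is prime to its index in `M` (`|M : M'| = |K|` is prime to `|M'|`), so it lies in
`fittingHallOf M`.  Or: every prime `r ∣ |N|` is in `sigma M` (else the normal Sylow `r`-subgroup
`R` of `N` is a normal Sylow `r`-subgroup of `M'` meeting `M_σ` trivially, so it centralizes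
`M_σ ≠ ⊥`; `r ∣ |U|`, `U₀` of `Cfsg.Agent.S1360.result` has exponent `exponent U`, so contains an
element of order `r`, which lies in `R`, so is in `sigmaHat M`: contradiction), hence
`N.map _ ≤ sigmaCore M` (`Cfsg.Agent.Lib.Helper62.S72BETA.mem_of_coprime_index`-style). -/
def FHD : Prop :=
  ∀ {G : Type u} [Group G] [Finite G], Cfsg.IsMinSimpleOddOrder G →
  ∀ (M K U : Subgroup G), IsCoatom M → Cfsg.IsSigmaDecomposition M K U → K ≠ ⊥ → U ≠ ⊥ →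
    Cfsg.fittingHallOf ⁅M, M⁆ = Cfsg.fittingHallOf M

/-- [TYPEF] (L, 2-3 seats; main (hF : FHD) : TypeF) `M'` is of Frobenius type.  `X := ↥⁅M, M⁆`:
solvable of odd order (subgroup of `M`).  By `hF`, `(fittingHall X).map ⁅M, M⁆.subtype =
fittingHallOf M = sigmaCore M`, `≠ ⊥` (`Cfsg.Agent.Lib.Helper9.BG11b.sigmaCore_ne_bot hG hM`),
and `fittingHall X ≠ ⊤` (`U ≤ ⁅M, M⁆`, `U ≠ ⊥`, `U ⊓ sigmaCore M = ⊥`).
`U' := U.subgroupOf ⁅M, M⁆ ≠ ⊥`, a complement of `fittingHall X` (`UC`-facts of the header: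
`Subgroup.isComplement'_of_disjoint_and_mul_eq_univ` / `isComplement'_of_card_mul_and_disjoint`).
`U₁ := U'`: commutative by `(Cfsg.Agent.S1363.result hG M hM K U hKU hK1).1`.
`U₀' := U₀.subgroupOf ⁅M, M⁆` with `U₀` from `Cfsg.Agent.S1360.result hG M hM K U hKU`:
same exponent (`Subgroup.subgroupOfEquivOfLe`, `Monoid.exponent_eq_of_mulEquiv`), and a `u ≠ 1`
in `U₀'` commuting with `x ≠ 1` in `fittingHall X` (so `(x : G) ∈ sigmaCore M`) would have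
`(u : G) ∈ sigmaHat M`. -/
def TypeF : Prop :=
  ∀ {G : Type u} [Group G] [Finite G], Cfsg.IsMinSimpleOddOrder G →
  ∀ (M K U : Subgroup G), IsCoatom M → Cfsg.IsSigmaDecomposition M K U → K ≠ ⊥ → U ≠ ⊥ →
    Cfsg.IsOfTypeF ↥⁅M, M⁆

/-- [UNIL] (S, pure) a commutative subgroup is nilpotent
(`let _ : CommGroup ↥U := { (inferInstance : Group ↥U) with mul_comm := .. }`,
`CommGroup.isNilpotent`). -/
def UNil : Prop :=
  ∀ {G : Type u} [Group G] (U : Subgroup G), IsMulCommutative ↥U → Group.IsNilpotent ↥U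

end Cfsg.Agent.Lib.Helper22.S81Stmt
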