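import Mathlib
import Cfsg.Agent.Lib.Helper93.S64Stmt

/-!
# S1356 (call by helper22): statement pieces

S1356: `M` maximal.  (1) `M'' ≤ F(M)`; (2) `F(M) = C_M(M_F) M_F`; (3) `κ(M) ≠ ∅ → F(M) ≤ M'`.

(1): `M'' ≤ M_σ` (`D2Le`, `E'` abelian).  `M_σ` nilpotent: `M_σ = M_F ≤ F(M)`.  Else `U = 1`,
`K ≠ 1`, `M' = M_σ =: H`, abstract setting `SetA`/`SetB` of `Helper93.S64Stmt` (`X = ↥M`, `R = K`,
`q = |K*|`): `O = O_q(H)` is a normal Sylow `q`-subgroup, `H / O` nilpotent, `D` an `R`-invariant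
complement of `O` in `H` (`HallD`), `N = Φ(O)` (`Frat`); S1446 in `X / N` for `D̄`, `R̄` and
`[O/N, D̄]` gives `[D̄, D̄]` centralizes `O / N` (`FrobMod`, `Quot`), so `D'` centralizes `O`
(`Lift`) and `H' ≤ O × D'` is nilpotent (`NilProd`): `DerNil`.
(2): `F(M) ≤ C_M(M_F) M_F` (`FLe2`, pure); `C_M(M_F)` is nilpotent (`CNilK1` for `K ≠ 1`, from
`C_M(M_F) ≤ M'` (`CLe`) and S1355; `CNilK0` for `K = 1`, from S1421).  (3): `CLe`.
-/

set_option autoImplicit false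

namespace Cfsg.Agent.Lib.Helper22.S56Stmt

universe u

open Cfsg Cfsg.Agent.Lib.Helper93.S64Stmt

/-! ## pure group theory: `H'` is nilpotent in the setting `SetA`/`SetB` -/

/-- [HALLD] (M-L, pure) an `R`-invariant complement `D` of `O = Oq X H q` in `H`.
`O = pCore q X ⊓ H` is a normal `q`-group (`Cfsg.Agent.Lib.Helper76.PSolv.pCore_isPGroup`,
`IsPGroup.to_le`), `q ∤ O.index`, so `(Nat.card O).Coprime O.index` and `O` has a complement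
`T₀` in `X` (`Subgroup.exists_right_complement'_of_coprime`), `Nat.card T₀ = O.index`.
`q ∣ |H|` (`SetB.card`, `Subgroup.card_dvd_of_le inf_le_left`), so `q ∤ |R|` (`SetA.cop`).
`X` is solvable (`SetA.solv`): `R ≤ T` for a conjugate `T` of `T₀` (Hall: e.g.
`Cfsg.Agent.Lib.Helper51.EqC2.hall_conj_sub`, `Cfsg.Agent.Lib.Helper73.NilHallFusion.hall_conj_sub`,
`Cfsg.Agent.Lib.Helper91.Hall.hall_conj`, `Cfsg.Agent.Lib.Helper39.PGA.IsHallIn.conj_pair`).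
`D := T ⊓ H`: `D ⊓ O ≤ T ⊓ O = ⊥`; `h = o * t` gives `t = o⁻¹ * h ∈ T ⊓ H`; `R ≤ T` normalizes
`T ⊓ H` (`H` normal); `|D| ∣ |T| = O.index` is prime to `q`. -/
def HallD : Prop :=
  ∀ {X : Type u} [Group X] [Finite X] (H R : Subgroup X) [H.Normal] (q : ℕ),
    SetA X H R → SetB X H R q → ¬ q ∣ (Oq X H q).index →
    ∃ D : Subgroup X, D ≤ H ∧ D ⊓ Oq X H q = ⊥ ∧ H ≤ Oq X H q ⊔ D ∧
      R ≤ Subgroup.normalizer (D : Set X) ∧ (Nat.card ↥D).Coprime q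

/-- [FRAT] (S-M, pure) the Frattini subgroup of a normal `q`-subgroup `O`, as a subgroup of `X`.
`N := (frattini ↥O).map O.subtype`; normal: `Cfsg.Agent.Lib.Helper64.ZJE.frattini_map_normal O`;
`Cfsg.Agent.Lib.Helper63.PFrattini.pow_mem_frattini`, `.comm_mem_frattini` (for `G := ↥O`);
last clause: `S.subgroupOf O ⊔ frattini ↥O = ⊤` (every `o ∈ O` is `s * n`), so
`S.subgroupOf O = ⊤` (`frattini_nongenerating`). -/
def Frat : Prop :=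
  ∀ {X : Type u} [Group X] [Finite X] (O : Subgroup X) [O.Normal] (q : ℕ) [Fact q.Prime],
    IsPGroup q ↥O →
    ∃ N : Subgroup X, N.Normal ∧ N ≤ O ∧ (∀ a ∈ O, a ^ q ∈ N) ∧
      (∀ a ∈ O, ∀ b ∈ O, a * b * a⁻¹ * b⁻¹ ∈ N) ∧
      ∀ S : Subgroup X, S ≤ O → O ≤ S ⊔ N → O ≤ S

/-- [FROBMOD] (M-L, pure; uses `Cfsg.Agent.S1446.result` and
`Cfsg.Agent.Lib.Helper49.CoprimeDecomp.coprime_decomp`) a Frobenius group `K R` on an elementary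
abelian `q`-group `V` with prime action of `R` and cyclic fixed points: `K'` centralizes `V`.
`K = ⊥`: trivial.  `W := ⁅V, K⁆ ≤ V` (`K` normalizes `V`).  `W = ⊥`: `K ≤ centralizer V`
(`Subgroup.commutator_eq_bot_iff_le_centralizer`).  Else `Cfsg.Agent.S1446.result K R W`:
`K ⊓ R = ⊥` (`x ∈ K ⊓ R`, `x ≠ 1` lies in `K ⊓ C({x}) = ⊥`); `W` commutative so nilpotent; `K`, `R`
normalize `W` (they normalize `V` and `K`); `|W|` is a power of `q`; `W ⊓ C(K) = ⊥`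
(`coprime_decomp ..).1`, `|K| ∣ |K ⊔ R|`); `W ⊓ C({x}) = W ⊓ (V ⊓ C({x})) = W ⊓ C(R)`;
`W ⊓ C(R) ≤ V ⊓ C(R)` is cyclic.  So `⁅K, K⁆ ≤ centralizer W`; and `v = u * m` with
`u ∈ V ⊓ C(K)`, `m ∈ W` (`(coprime_decomp ..).2`), `⁅K, K⁆ ≤ K`. -/
def FrobMod : Prop :=
  ∀ {Y : Type u} [Group Y] [Finite Y] (V K R : Subgroup Y) (q : ℕ) [Fact q.Prime],
    (∀ a ∈ V, ∀ b ∈ V, a * b = b * a) → (∀ a ∈ V, a ^ q = 1) →
    K ≤ Subgroup.normalizer (V : Set Y) → R ≤ Subgroup.normalizer (V : Set Y) →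
    R ≤ Subgroup.normalizer (K : Set Y) → R ≠ ⊥ →
    (∀ r ∈ R, r ≠ 1 → K ⊓ Subgroup.centralizer ({r} : Set Y) = ⊥) →
    Group.IsSolvable ↥(K ⊔ R) → Odd (Nat.card ↥(K ⊔ R)) →
    (Nat.card ↥(K ⊔ R)).Coprime q →
    (∀ x ∈ R, x ≠ 1 → V ⊓ Subgroup.centralizer ({x} : Set Y) =
      V ⊓ Subgroup.centralizer (R : Set Y)) →
    IsCyclic ↥(V ⊓ Subgroup.centralizer (R : Set Y)) →
    ⁅K, K⁆ ≤ Subgroup.centralizer (V : Set Y)

/-- [QUOT] (L; main (hQP : Cfsg.Agent.Lib.Helper93.S64Stmt.QuotPrime) (hFM : FrobMod) : Quot;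
`QuotPrime` is `Cfsg.Agent.Lib.Helper31.S64QUOTPRIME.main`) `D'` centralizes `O / N`.
`O := Oq X H q`, `Y := X ⧸ N`, `π := QuotientGroup.mk' N`; `FrobMod` for `V := O.map π`,
`K := D.map π`, `R' := R.map π`.  `V` commutative of exponent `q` (hyps; `π a * π b = π b * π a`
iff `a⁻¹ * b⁻¹ * a * b ∈ N`); `V` normal in `Y`; `R' ≤ N(K)`; `R' ≠ ⊥`: `x ∈ R`, `x ≠ 1` is not
in `N ≤ H` (`H ⊓ R = ⊥` by `SetA.cop`); `QuotPrime H R N` (`N ≤ O ≤ H`): for `y ∈ R'`, `y ≠ 1`,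
`H.map π ⊓ C({y}) = C.map π` with `C := H ⊓ C(R) ≤ O`; `K ⊓ C({y}) = ⊥`: `π d = π c` gives
`d ∈ D ⊓ O = ⊥`; `V ⊓ C({y}) = V ⊓ C.map π = V ⊓ C(R')`; `C.map π` cyclic (`|C| = q` prime),
so `V ⊓ C(R')` cyclic; `Y` solvable of odd order; `q ∤ |K ⊔ R'|`: `K ⊔ R' = (D ⊔ R).map π`, an
element of order `q` of `D ⊔ R` lies in `O` (its image in `X ⧸ O` has order dividing `q` and
`O.index`) and is `d * r` with `r ∈ H ⊓ R = ⊥`, so lies in `D ⊓ O = ⊥`.  Finally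
`π d ∈ ⁅K, K⁆` (`Subgroup.map_commutator`) commutes with `π o`. -/
def Quot : Prop :=
  ∀ {X : Type u} [Group X] [Finite X] (H R D N : Subgroup X) [H.Normal] [N.Normal] (q : ℕ),
    SetA X H R → SetB X H R q → ¬ q ∣ (Oq X H q).index →
    H ⊓ Subgroup.centralizer (R : Set X) ≤ Oq X H q →
    D ≤ H → D ⊓ Oq X H q = ⊥ → R ≤ Subgroup.normalizer (D : Set X) →
    N ≤ Oq X H q → (∀ a ∈ Oq X H q, a ^ q ∈ N) →
    (∀ a ∈ Oq X H q, ∀ b ∈ Oq X H q, a * b * a⁻¹ * b⁻¹ ∈ N) →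
    ∀ d ∈ ⁅D, D⁆, ∀ o ∈ Oq X H q, d * o * d⁻¹ * o⁻¹ ∈ N

/-- [LIFT] (M-L, pure) a `q'`-group acting trivially on `O / N` (`N` of non-generators of the
`q`-group `O`) centralizes `O`.  Strong induction on `orderOf a` for `a ∈ A`: `a ≠ 1`, `r` a
prime dividing `orderOf a` (`r ≠ q`), `a ^ r ∈ A` has smaller order, so centralizes `O`.
`φ := MulAut.conjNormal a : MulAut ↥O` has `φ ^ r = 1`;
`Cfsg.Agent.Lib.Helper31.CoprimeGen.exists_fixed_in_coset φ _ (N.subgroupOf O) _ _ ⟨o, _⟩ _`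
(`r ∤ |N|`, a `q`-group; `o⁻¹ * (a * o * a⁻¹) ∈ N` is a conjugate of the hypothesis) gives
`n ∈ N` with `a * (o * n) * a⁻¹ = o * n`; so `O ≤ (O ⊓ centralizer {a}) ⊔ N`, hence
`O ≤ O ⊓ centralizer {a}`. -/
def Lift : Prop :=
  ∀ {X : Type u} [Group X] [Finite X] (O N A : Subgroup X) [O.Normal] [N.Normal] (q : ℕ)
    [Fact q.Prime], IsPGroup q ↥O → N ≤ O →
    (∀ S : Subgroup X, S ≤ O → O ≤ S ⊔ N → O ≤ S) →
    (Nat.card ↥A).Coprime q →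
    (∀ a ∈ A, ∀ o ∈ O, a * o * a⁻¹ * o⁻¹ ∈ N) →
    A ≤ Subgroup.centralizer (O : Set X)

/-- [NILPROD] (M-L, pure) `H = O D`, `H / O` nilpotent, `D'` centralizes `O`: `H'` is nilpotent.
`D ≃ D.map π` (`π = mk' O` is injective on `D`), a subgroup of the nilpotent `H.map π`, so `D` and
`⁅D, D⁆` are nilpotent (`Cfsg.Agent.Lib.Helper70.PNilp.nilpotent_of_le`).  `L := O ⊔ ⁅D, D⁆` is
nilpotent: image of `↥O × ↥⁅D, D⁆` under `(o, d) ↦ o * d` (a hom, the factors commute;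
`Group.isNilpotent_prod`, `Group.nilpotent_of_surjective`; `O` is a `q`-group).  `⁅H, H⁆ ≤ L`
(`Subgroup.commutator_le`): `h₁ = o₁ * d₁`, `h₂ = o₂ * d₂`, and `⁅h₁, h₂⁆ * ⁅d₁, d₂⁆⁻¹ ∈ O`
(apply `π`). -/
def NilProd : Prop :=
  ∀ {X : Type u} [Group X] [Finite X] (H O D : Subgroup X) [H.Normal] [O.Normal] (q : ℕ)
    [Fact q.Prime], IsPGroup q ↥O → O ≤ H → D ≤ H → D ⊓ O = ⊥ → H ≤ O ⊔ D →
    Group.IsNilpotent ↥(H.map (QuotientGroup.mk' O)) →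
    ⁅D, D⁆ ≤ Subgroup.centralizer (O : Set X) →
    Group.IsNilpotent ↥⁅H, H⁆

/-- [DERNIL] (helper22: assembly of the pure pieces with `SylNormal`, `SylNilp`). -/
def DerNil : Prop :=
  ∀ {X : Type u} [Group X] [Finite X] (H R : Subgroup X) [H.Normal] (q : ℕ),
    SetA X H R → SetB X H R q → Group.IsNilpotent ↥⁅H, H⁆

/-- [FLE2] (M, pure) `F(X) ≤ C_X(X_F) X_F`.  `F := fittingSubgroup X` is nilpotent (Fitting; as in
`Cfsg.Agent.S1445` / `Cfsg.Agent.S3766.fitting_characteristic`), `N := fittingHall X ≤ F`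
(`sSup_le_sSup`), `N` normal with `(Nat.card N).Coprime N.index`
(`Cfsg.Agent.Lib.Helper17.S64FHHALL.main`).  For `x ∈ F`, `n := Nat.card N`, `m := N.index`:
`x ^ m ∈ N`; `x ^ n` has order prime to `n` and lies in the nilpotent `F`, so it commutes with the
elements of `N` (elements of coprime order in a nilpotent group commute: Sylow subgroups normal,
`isNilpotent_of_finite_tfae`; or `Cfsg.Agent.Lib.Helper9.BG10g.normal_of_hall_le_nilpotent`); and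
`x = (x ^ m) ^ a * (x ^ n) ^ b` for suitable `a b` (`Nat.Coprime`, Bezout mod `orderOf x`). -/
def FLe2 : Prop :=
  ∀ {X : Type u} [Group X] [Finite X],
    Cfsg.fittingSubgroup X ≤
      Subgroup.centralizer ((Cfsg.fittingHall X : Subgroup X) : Set X) ⊔ Cfsg.fittingHall X

/-! ## concrete pieces -/

/-- [D2LE] (S-M) `M'' ≤ M_σ`.  `E := K ⊔ U`,
`hE := (Cfsg.Agent.Lib.Helper90.BG14U.uset_of_decomp hG hM hKU).compl`; `E'` is abelian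
(`Cfsg.Agent.S1420.result hG M hM E hE`, second clause), so `⁅⁅E, E⁆, ⁅E, E⁆⁆ = ⊥`.  As in
`Cfsg.Agent.Lib.Helper22.S55QUOTNIL` (`π := mk' (piCore (sigma M) ↥M)`, `E' := E.subgroupOf M`,
`E'.map π = ⊤`): `(⁅commutator ↥M, commutator ↥M⁆).map π = (⁅⁅E', E'⁆, ⁅E', E'⁆⁆).map π = ⊥`. -/
def D2Le : Prop :=
  ∀ {G : Type u} [Group G] [Finite G], Cfsg.IsMinSimpleOddOrder G →
  ∀ (M K U : Subgroup G), IsCoatom M → Cfsg.IsSigmaDecomposition M K U →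
    ⁅⁅M, M⁆, ⁅M, M⁆⁆ ≤ Cfsg.sigmaCore M

/-- [DER1] (M; main (hDN : DerNil) (hD2 : D2Le) : Der1) `M'' ≤ F(M)`.  `M_σ` nilpotent:
`D2Le`, `Cfsg.Agent.Lib.Helper57.BG14FHCore.main_of hG M hM (Cfsg.Agent.S1350.result hG M hM).1
hnil : sigmaCore M = fittingHallOf M`, and `fittingHall ↥M ≤ fittingSubgroup ↥M`
(`sSup_le_sSup`).  Else `U = ⊥` (`Cfsg.Agent.Lib.Helper22.BG147N0.nilpotent_of_U_ne_bot`),
`K ≠ ⊥` (`Cfsg.Agent.Lib.Helper47.S55KNE.main`),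
`Cfsg.Agent.Lib.Helper73.S55COMMEQ.main : commutator ↥M = piCore (sigma M) ↥M =: H`,
`Cfsg.Agent.Lib.Helper93.S64GLUEA.main`, `.S64GLUEB.main`; `hDN` gives `⁅H, H⁆` nilpotent; it is
normal (`Subgroup.commutator_normal`), so `≤ fittingSubgroup ↥M` (`le_sSup`); and
`⁅⁅M, M⁆, ⁅M, M⁆⁆ = (⁅commutator ↥M, commutator ↥M⁆).map M.subtype` (`Subgroup.map_commutator`,
as in `Cfsg.Agent.Lib.Helper48.S55DLT`). -/
def Der1 : Prop :=
  ∀ {G : Type u} [Group G] [Finite G], Cfsg.IsMinSimpleOddOrder G →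
  ∀ (M K U : Subgroup G), IsCoatom M → Cfsg.IsSigmaDecomposition M K U →
    ⁅⁅M, M⁆, ⁅M, M⁆⁆ ≤ Cfsg.fittingOf M

/-- [CLE] (L) `K ≠ 1`: `C_M(M_F) ≤ M'`.  `C := M ⊓ centralizer (fittingHallOf M)` is normalized
by `M`.  (i) `C ⊓ K = ⊥`: `k ∈ K`, `k ≠ 1` centralizing `M_F` gives
`M_F ≤ M_σ ⊓ C({k}) ≤ M_σ ⊓ C(K)` (`Cfsg.Agent.S1354.result`: `C_M(k) = K ⊔ K*`, `K ⊓ M_σ = ⊥`;
or `Cfsg.Agent.Lib.Helper55.S66Base.primAct`; `M_F ≤ M_σ`: `Cfsg.Agent.Lib.Helper22.S55FLE.main`),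
cyclic by `(Cfsg.Agent.S1364.result ..).1`, against `¬ IsCyclic ↥(fittingHallOf M)`
(`(Cfsg.Agent.S1364.result ..)`, last clause).  (ii) `|C|` is prime to `|K|`: an element of `C` of
prime order `r ∣ |K|` is `M`-conjugate into `K` (`K` contains a Sylow `r`-subgroup of `M`:
`hKU.hall`; Sylow, or `Cfsg.Agent.Lib.Helper39.PGA.IsHallIn.conj_elt`), and the conjugate lies in
`C ⊓ K`.  (iii) `c ∈ C`: `c = u * (k * s)` (`hKU.compl.2.2.2`, `Subgroup.mem_sup`),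
`U ⊔ sigmaCore M = ⁅M, M⁆` (`(Cfsg.Agent.S1365.result ..).1`) is normal in `M`, so
`k ^ orderOf c ∈ K ⊓ ⁅M, M⁆ = ⊥`, `orderOf k ∣ orderOf c`, prime to `|K|`: `k = 1`. -/
def CLe : Prop :=
  ∀ {G : Type u} [Group G] [Finite G], Cfsg.IsMinSimpleOddOrder G →
  ∀ (M K U : Subgroup G), IsCoatom M → Cfsg.IsSigmaDecomposition M K U → K ≠ ⊥ →
    M ⊓ Subgroup.centralizer ((Cfsg.fittingHallOf M : Subgroup G) : Set G) ≤ ⁅M, M⁆

/-- (S1355, last clause; supplied by helper22 from `Cfsg.Agent.S1355.result`). -/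
def NilQF : Prop :=
  ∀ {G : Type u} [Group G] [Finite G], Cfsg.IsMinSimpleOddOrder G →
  ∀ (M : Subgroup G), IsCoatom M →
    Group.IsNilpotent ↥((commutator ↥M).map (QuotientGroup.mk' (Cfsg.fittingHall ↥M)))

/-- [CNILK1] (M-L; main (hC : CLe) (hN : NilQF) : CNilK1) `K ≠ 1`: `C_M(M_F)` is nilpotent.
`C' := centralizer (fittingHall ↥M)`; `C' ≤ commutator ↥M` (`hC`;
`⁅M, M⁆ = (commutator ↥M).map M.subtype`); `π := mk' (fittingHall ↥M)`;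
`f : ↥C' →* ↥((commutator ↥M).map π)`, `f.ker ≤ center ↥C'` (an element of
`C' ⊓ fittingHall ↥M` commutes with `C'`); `isNilpotent_of_ker_le_center f _ (hN ..)`. -/
def CNilK1 : Prop :=
  ∀ {G : Type u} [Group G] [Finite G], Cfsg.IsMinSimpleOddOrder G →
  ∀ (M K U : Subgroup G), IsCoatom M → Cfsg.IsSigmaDecomposition M K U → K ≠ ⊥ →
    Group.IsNilpotent ↥(Subgroup.centralizer ((Cfsg.fittingHall ↥M : Subgroup ↥M) : Set ↥M))

/-- [CNILK0] (L) `K = 1`: `C_M(M_F)` is nilpotent.  `U ≠ ⊥` (`Cfsg.Agent.Lib.Helper47.S55KNE.main`),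
`M_σ` nilpotent (`Cfsg.Agent.Lib.Helper22.BG147N0.nilpotent_of_U_ne_bot`), `M_σ = M_F`
(`Cfsg.Agent.Lib.Helper57.BG14FHCore.main_of`), `M_σ ≠ ⊥` (`Cfsg.Agent.Lib.Helper9.BG11b.sigmaCore_ne_bot`),
so there is `x ≠ 1` in the centre of `M_σ`.  `E := K ⊔ U = U`,
`hU := Cfsg.Agent.Lib.Helper90.BG14U.uset_of_decomp hG hM hKU` (`hU.compl`, `hU.reg` with
`hU.le`: the hypothesis of `Cfsg.Agent.S1421.result hG M hM E hU.compl`; see
`Cfsg.Agent.Lib.Helper90.BG14U.s1421_of`, `reg_iff`): an abelian `A₀ ≤ E` with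
`E ⊓ C({x}) ≤ A₀`.  For `c ∈ C' := centralizer (fittingHall ↥M)`: `c = e * s` (`hU.compl.2.2.2`),
`e = c * s⁻¹` centralizes `x`, so `e ∈ A₀`; hence the image of `C'` in
`↥M ⧸ piCore (sigma M) ↥M` is commutative, and the kernel `C' ⊓ piCore (sigma M) ↥M` is central
in `C'` (`piCore (sigma M) ↥M = fittingHall ↥M`); `isNilpotent_of_ker_le_center`. -/
def CNilK0 : Prop :=
  ∀ {G : Type u} [Group G] [Finite G], Cfsg.IsMinSimpleOddOrder G →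
  ∀ (M K U : Subgroup G), IsCoatom M → Cfsg.IsSigmaDecomposition M K U → K = ⊥ →
    Group.IsNilpotent ↥(Subgroup.centralizer ((Cfsg.fittingHall ↥M : Subgroup ↥M) : Set ↥M))

/-- [F2EQ] (M; main (hF : FLe2) : F2Eq) `F(M) = C_M(M_F) M_F` from the nilpotency of `C_M(M_F)`.
In `↥M`: `fittingSubgroup ↥M = C' ⊔ fittingHall ↥M` (`hF`; `C'` normal and nilpotent: `le_sSup`;
`fittingHall ↥M ≤ fittingSubgroup ↥M`: `sSup_le_sSup`); `Subgroup.map_sup`;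
`C'.map M.subtype = M ⊓ centralizer (fittingHallOf M)` (`ext`). -/
def F2Eq : Prop :=
  ∀ {G : Type u} [Group G] [Finite G] (M : Subgroup G),
    Group.IsNilpotent ↥(Subgroup.centralizer ((Cfsg.fittingHall ↥M : Subgroup ↥M) : Set ↥M)) →
    Cfsg.fittingOf M =
      (M ⊓ Subgroup.centralizer (Cfsg.fittingHallOf M : Set G)) ⊔ Cfsg.fittingHallOf M

end Cfsg.Agent.Lib.Helper22.S56Stmt
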