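import Mathlib
import Cfsg.Prelude.Def_OddOrderLocal

set_option autoImplicit false

/-!
# Piece statements for S1378 (Bender-Glauberman 13.9: `σ(M) ∩ σ(H) = ∅` for non-conjugate
maximal subgroups of a minimal simple group of odd order)

All piece statements are `Prop`-valued definitions; a piece is landed as
`theorem main : <hypothesis pieces> → BG139Stmt.X.{u}`.

Configuration (`Cfg M H S q`): `M`, `H` maximal, not conjugate, `q ∈ σ(M) ∩ σ(H)`, `S` a Sylow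
`q`-subgroup of `G` with `N := N_G(S) ≤ M ∩ H`.
`Fpf S R r`: `R` of prime order `r` normalizes `S` and `C_S(R) = 1`.
-/

namespace Cfsg.Agent.Lib.Helper22.BG139Stmt

universe u

/-- the conjugate `g H g⁻¹` -/
abbrev cj {G : Type u} [Group G] (g : G) (H : Subgroup G) : Subgroup G :=
  H.map (MulAut.conj g).toMonoidHom

/-- the configuration of a counterexample to BG 13.9 -/
structure Cfg {G : Type u} [Group G] (M H S : Subgroup G) (q : ℕ) : Prop where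
  hM : IsCoatom M
  hH : IsCoatom H
  hnc : ∀ g : G, cj g M ≠ H
  hq : q.Prime
  hqM : q ∈ Cfsg.sigma M
  hqH : q ∈ Cfsg.sigma H
  hSq : IsPGroup q S
  hS1 : S ≠ ⊥
  hSmax : ∀ Q : Subgroup G, IsPGroup q Q → S ≤ Q → Q = S
  hNM : Subgroup.normalizer (S : Set G) ≤ M
  hNH : Subgroup.normalizer (S : Set G) ≤ H

/-- `R` of prime order `r` normalizes `S` and acts on it without fixed points -/
structure Fpf {G : Type u} [Group G] (S R : Subgroup G) (r : ℕ) : Prop where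
  hr : r.Prime
  hRc : Nat.card R = r
  hRN : R ≤ Subgroup.normalizer (S : Set G)
  hfpf : ∀ s ∈ S, (∀ x ∈ R, x * s = s * x) → s = 1

theorem cj_inv_eq {G : Type u} [Group G] {g : G} {M H : Subgroup G} (h : cj g H = M) :
    cj g⁻¹ M = H := by
  subst h
  ext x
  simp only [cj, Subgroup.mem_map, MulEquiv.coe_toMonoidHom, MulAut.conj_apply, exists_exists_and_eq_and]
  constructor
  · rintro ⟨a, ha, rfl⟩
    simpa [mul_assoc] using ha
  · intro hx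
    exact ⟨x, hx, by simp [mul_assoc]⟩

/-- the configuration is symmetric in `M` and `H` -/
theorem Cfg.swap {G : Type u} [Group G] {M H S : Subgroup G} {q : ℕ} (h : Cfg M H S q) :
    Cfg H M S q :=
  { hM := h.hH, hH := h.hM, hnc := fun g hg => h.hnc g⁻¹ (cj_inv_eq hg), hq := h.hq,
    hqM := h.hqH, hqH := h.hqM, hSq := h.hSq, hS1 := h.hS1, hSmax := h.hSmax,
    hNM := h.hNH, hNH := h.hNM }

/-- the statement of S1428 (BG 13.4), as a hypothesis -/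
def H1428 (G : Type u) [Group G] : Prop :=
  ∀ (M : Subgroup G), IsCoatom M → ∀ (E : Subgroup G), Cfsg.IsComplIn E (Cfsg.sigmaCore M) M →
    ∀ (p : ℕ), p ∈ Cfsg.tau1 M → ∀ (P : Subgroup G), P ≤ E → Nat.card P = p →
    ∀ (R : Subgroup G), R ≤ E ⊓ Subgroup.centralizer (P : Set G) → (Nat.card R).Prime →
      Cfsg.sigmaCore M ⊓ Subgroup.centralizer (P : Set G) ≤
        Cfsg.sigmaCore M ⊓ Subgroup.centralizer (R : Set G)

/-- [SETUP] a common prime of `σ(M)`, `σ(H)` gives the configuration after conjugating `H` -/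
def Setup : Prop :=
  ∀ {G : Type u} [Group G] [Finite G], Cfsg.IsMinSimpleOddOrder G →
    ∀ (M H : Subgroup G), IsCoatom M → IsCoatom H → (∀ g : G, cj g M ≠ H) →
    ∀ q : ℕ, q ∈ Cfsg.sigma M → q ∈ Cfsg.sigma H →
    ∃ (g : G) (S : Subgroup G), Cfg M (cj g H) S q

/-- [STR1] cheap facts: `S` abelian, `q ∉ α(M)`, `β(M) ≠ ∅`, `τ₂(M) = ∅` -/
def Str1 : Prop :=
  ∀ {G : Type u} [Group G] [Finite G], Cfsg.IsMinSimpleOddOrder G →
    ∀ (M H S : Subgroup G) (q : ℕ), Cfg M H S q →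
      (∀ s ∈ S, ∀ t ∈ S, s * t = t * s) ∧ q ∉ Cfsg.alpha M ∧ (∃ ℓ : ℕ, ℓ ∈ Cfsg.beta M) ∧
        ∀ p : ℕ, p ∉ Cfsg.tau2 M

/-- [STR2] structure: `M = M_α N`, `M ∩ H = N`, `M_α ∩ H ≤ C(S)`, `N ∩ M' ≤ C(S)`, and no
`ℓ`-subgroup (`ℓ` prime) of `M` of rank `≥ 3` centralizes `S` -/
def Str2 : Prop :=
  ∀ {G : Type u} [Group G] [Finite G], Cfsg.IsMinSimpleOddOrder G →
    ∀ (M H S : Subgroup G) (q : ℕ), Cfg M H S q →
      (∀ m ∈ M, ∃ a ∈ Cfsg.alphaCore M, ∃ n ∈ Subgroup.normalizer (S : Set G), m = a * n) ∧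
        M ⊓ H = Subgroup.normalizer (S : Set G) ∧
        Cfsg.alphaCore M ⊓ H ≤ Subgroup.centralizer (S : Set G) ∧
        Subgroup.normalizer (S : Set G) ⊓ ⁅M, M⁆ ≤ Subgroup.centralizer (S : Set G) ∧
        ∀ (ℓ : ℕ) (T : Subgroup G), ℓ.Prime → T ≤ M → IsPGroup ℓ T → ¬ Cfsg.PRankLE ℓ 2 ↥T →
          ¬ T ≤ Subgroup.centralizer (S : Set G)

/-- [R] a subgroup `R ≤ N` of prime order `r ∈ τ₁(M) ∩ τ₁(H)` with `C_S(R) = 1` -/
def ExistsR : Prop :=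
  ∀ {G : Type u} [Group G] [Finite G], Cfsg.IsMinSimpleOddOrder G → H1428 G →
    ∀ (M H S : Subgroup G) (q : ℕ), Cfg M H S q →
      ∃ (R : Subgroup G) (r : ℕ), Fpf S R r ∧ r ∈ Cfsg.tau1 M ∧ r ∈ Cfsg.tau1 H

/-- [Z] if a nontrivial element of `K_α` centralizes `S R`, then `K` is the only maximal subgroup
containing `C_K(S)` -/
def LemZ : Prop :=
  ∀ {G : Type u} [Group G] [Finite G], Cfsg.IsMinSimpleOddOrder G →
    ∀ (K S R : Subgroup G) (q r : ℕ), IsCoatom K → S ≤ K → R ≤ K → q.Prime → IsPGroup q S →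
      q ∉ Cfsg.alpha K → (∀ s ∈ S, ∀ t ∈ S, s * t = t * s) → Fpf S R r → r ∈ Cfsg.tau1 K →
      ∀ y ∈ Cfsg.alphaCore K, y ≠ 1 → (∀ s ∈ S, y * s = s * y) → (∀ x ∈ R, y * x = x * y) →
      ∀ L : Subgroup G, IsCoatom L → K ⊓ Subgroup.centralizer (S : Set G) ≤ L → L = K

/-- [D] an element of order `ℓ` of `K_α` centralizing `R`, for `ℓ ∈ α(K)`, provided no
`ℓ`-subgroup of `K` of rank `≥ 3` centralizes `S` -/
def ExistsX : Prop :=
  ∀ {G : Type u} [Group G] [Finite G], Cfsg.IsMinSimpleOddOrder G →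
    ∀ (K S R : Subgroup G) (q r ℓ : ℕ), IsCoatom K → S ≤ K → R ≤ K → q.Prime → IsPGroup q S →
      q ∉ Cfsg.alpha K → (∀ s ∈ S, ∀ t ∈ S, s * t = t * s) → Fpf S R r → r ∈ Cfsg.tau1 K →
      ℓ ∈ Cfsg.alpha K →
      (∀ T : Subgroup G, T ≤ K → IsPGroup ℓ T → ¬ Cfsg.PRankLE ℓ 2 ↥T →
        ¬ T ≤ Subgroup.centralizer (S : Set G)) →
      ∃ x ∈ Cfsg.alphaCore K, orderOf x = ℓ ∧ ∀ y ∈ R, y * x = x * y

/-- [E] conjugation step inside `C_G(R)` -/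
def ConjStep : Prop :=
  ∀ {G : Type u} [Group G] [Finite G], Cfsg.IsMinSimpleOddOrder G →
    ∀ (M H R : Subgroup G) (r ℓ ℓ' : ℕ), IsCoatom M → IsCoatom H → (∀ g : G, cj g M ≠ H) →
      Nat.card R = r → R ≤ M → R ≤ H → r ∈ Cfsg.tau1 M → r ∈ Cfsg.tau1 H →
      ℓ ∈ Cfsg.beta M → ℓ' ∈ Cfsg.beta H →
      ∀ x ∈ M, orderOf x = ℓ → (∀ y ∈ R, y * x = x * y) →
      ∀ x' ∈ H, orderOf x' = ℓ' → (∀ y ∈ R, y * x' = x' * y) →
      (∃ y ∈ M, orderOf y = ℓ' ∧ ∀ z ∈ R, z * y = y * z) ∨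
        (∃ y ∈ H, orderOf y = ℓ ∧ ∀ z ∈ R, z * y = y * z)

/-- [F] an element of `C_M(R)` of order `ℓ' ∈ α(H)` gives a nontrivial element of
`C_{H_α}(S R)` -/
def Final : Prop :=
  ∀ {G : Type u} [Group G] [Finite G], Cfsg.IsMinSimpleOddOrder G → Str1.{u} → Str2.{u} →
    ∀ (M H S R : Subgroup G) (q r ℓ' : ℕ), Cfg M H S q → Fpf S R r → r ∈ Cfsg.tau1 M →
      r ∈ Cfsg.tau1 H → ℓ' ∈ Cfsg.alpha H →
      ∀ y ∈ M, orderOf y = ℓ' → (∀ z ∈ R, z * y = y * z) →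
      ∃ y₂ ∈ Cfsg.alphaCore H, y₂ ≠ 1 ∧ (∀ s ∈ S, y₂ * s = s * y₂) ∧ ∀ z ∈ R, y₂ * z = z * y₂

end Cfsg.Agent.Lib.Helper22.BG139Stmt
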