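import Mathlib
import Cfsg.Agent.Lib.Helper22.BG139Stmt

set_option autoImplicit false

/-! Assembly of BG 13.9 (`σ(M) ∩ σ(H) = ∅` for non-conjugate maximal subgroups) from the
pieces of `BG139Stmt`. -/

namespace Cfsg.Agent.Lib.Helper22.BG139Asm

open Cfsg.Agent.Lib.Helper22.BG139Stmt

universe u

theorem alphaCore_le {G : Type u} [Group G] (M : Subgroup G) : Cfsg.alphaCore M ≤ M := by
  unfold Cfsg.alphaCore
  exact Subgroup.map_subtype_le _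

theorem cj_one {G : Type u} [Group G] (M : Subgroup G) : cj (1 : G) M = M := by
  ext x
  simp [cj]

/-- no configuration exists -/
theorem no_cfg (hStr1 : Str1.{u}) (hStr2 : Str2.{u}) (hR : ExistsR.{u}) (hZ : LemZ.{u})
    (hD : ExistsX.{u}) (hE : ConjStep.{u}) (hF : Final.{u})
    {G : Type u} [Group G] [Finite G] (hG : Cfsg.IsMinSimpleOddOrder G) (h28 : H1428 G)
    (M H S : Subgroup G) (q : ℕ) (hcfg : Cfg M H S q) : False := by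
  have hcfg' := hcfg.swap
  obtain ⟨hab, hqα, ⟨ℓ, hℓ⟩, -⟩ := hStr1 hG M H S q hcfg
  obtain ⟨-, hqα', ⟨ℓ', hℓ'⟩, -⟩ := hStr1 hG H M S q hcfg'
  obtain ⟨-, -, -, -, hrk⟩ := hStr2 hG M H S q hcfg
  obtain ⟨-, -, -, -, hrk'⟩ := hStr2 hG H M S q hcfg'
  obtain ⟨R, r, hfpf, hrM, hrH⟩ := hR hG h28 M H S q hcfg
  have hSN : S ≤ Subgroup.normalizer (S : Set G) := Subgroup.le_normalizer
  have hSM : S ≤ M := hSN.trans hcfg.hNM
  have hSH : S ≤ H := hSN.trans hcfg.hNH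
  have hRM : R ≤ M := hfpf.hRN.trans hcfg.hNM
  have hRH : R ≤ H := hfpf.hRN.trans hcfg.hNH
  have hCN : Subgroup.centralizer (S : Set G) ≤ Subgroup.normalizer (S : Set G) :=
    Subgroup.centralizer_le_normalizer _
  obtain ⟨x, hxα, hxo, hxR⟩ := hD hG M S R q r ℓ hcfg.hM hSM hRM hcfg.hq hcfg.hSq hqα hab hfpf
    hrM hℓ.1 (fun T => hrk ℓ T hℓ.1.1)
  obtain ⟨x', hxα', hxo', hxR'⟩ := hD hG H S R q r ℓ' hcfg.hH hSH hRH hcfg.hq hcfg.hSq hqα' hab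
    hfpf hrH hℓ'.1 (fun T => hrk' ℓ' T hℓ'.1.1)
  have hxM : x ∈ M := alphaCore_le M hxα
  have hxH : x' ∈ H := alphaCore_le H hxα'
  rcases hE hG M H R r ℓ ℓ' hcfg.hM hcfg.hH hcfg.hnc hfpf.hRc hRM hRH hrM hrH hℓ hℓ' x hxM hxo
    hxR x' hxH hxo' hxR' with ⟨y, hyM, hyo, hyR⟩ | ⟨y, hyH, hyo, hyR⟩
  · obtain ⟨y₂, hy₂α, hy₂1, hy₂S, hy₂R⟩ := hF hG hStr1 hStr2 M H S R q r ℓ' hcfg hfpf hrM hrH
      hℓ'.1 y hyM hyo hyR
    have hMH : M = H := hZ hG H S R q r hcfg.hH hSH hRH hcfg.hq hcfg.hSq hqα' hab hfpf hrH y₂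
      hy₂α hy₂1 hy₂S hy₂R M hcfg.hM (inf_le_right.trans (hCN.trans hcfg.hNM))
    exact hcfg.hnc 1 (by rw [cj_one]; exact hMH)
  · obtain ⟨y₂, hy₂α, hy₂1, hy₂S, hy₂R⟩ := hF hG hStr1 hStr2 H M S R q r ℓ hcfg' hfpf hrH hrM
      hℓ.1 y hyH hyo hyR
    have hHM : H = M := hZ hG M S R q r hcfg.hM hSM hRM hcfg.hq hcfg.hSq hqα hab hfpf hrM y₂
      hy₂α hy₂1 hy₂S hy₂R H hcfg.hH (inf_le_right.trans (hCN.trans hcfg.hNH))
    exact hcfg.hnc 1 (by rw [cj_one]; exact hHM.symm)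

/-- BG 13.9 from the pieces -/
theorem conj_of (hSetup : Setup.{u}) (hStr1 : Str1.{u}) (hStr2 : Str2.{u}) (hR : ExistsR.{u})
    (hZ : LemZ.{u}) (hD : ExistsX.{u}) (hE : ConjStep.{u}) (hF : Final.{u})
    {G : Type u} [Group G] [Finite G] (hG : Cfsg.IsMinSimpleOddOrder G) (h28 : H1428 G)
    (M N : Subgroup G) (hM : IsCoatom M) (hN : IsCoatom N)
    (h : (Cfsg.sigma M ∩ Cfsg.sigma N).Nonempty) :
    ∃ g : G, N = M.map (MulAut.conj g).toMonoidHom := by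
  by_contra hcon
  have hcon : ∀ g : G, N ≠ M.map (MulAut.conj g).toMonoidHom := fun g hg => hcon ⟨g, hg⟩
  obtain ⟨q, hqM, hqN⟩ := h
  obtain ⟨g, S, hcfg⟩ := hSetup hG M N hM hN (fun g hg => hcon g hg.symm) q hqM hqN
  exact no_cfg hStr1 hStr2 hR hZ hD hE hF hG h28 M (cj g N) S q hcfg

end Cfsg.Agent.Lib.Helper22.BG139Asm
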