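import Mathlib
import Cfsg.Agent.Lib.Helper75.DCStmt

set_option autoImplicit false

/-!
helper22: piece ODD of helper75's S4719 call: Theorem A for `G` of odd order, bound `c ^ 3`.
-/

namespace Cfsg.Agent.Lib.Helper22.DCODD

open Cfsg.Agent.Lib.Helper75.DCStmt
open scoped Pointwise

universe u

theorem isPGroup_zpowers_of_sq {A : Type*} [Group A] (φ : A) (hφ : φ * φ = 1) :
    IsPGroup 2 (Subgroup.zpowers φ) := by
  intro g
  refine ⟨1, ?_⟩
  obtain ⟨g, hg⟩ := g
  obtain ⟨n, rfl⟩ := Subgroup.mem_zpowers_iff.mp hg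
  apply Subtype.ext
  simp only [pow_one, Subgroup.coe_pow, Subgroup.coe_one]
  rw [← zpow_natCast, ← zpow_mul, mul_comm, zpow_mul, zpow_natCast, pow_two, hφ, one_zpow]

/-- two commuting involutions generate a 2-group -/
theorem isPGroup_sup_zpowers {A : Type*} [Group A] (φ ψ : A) (hφ : φ * φ = 1) (hψ : ψ * ψ = 1)
    (hc : φ * ψ = ψ * φ) : IsPGroup 2 (Subgroup.zpowers φ ⊔ Subgroup.zpowers ψ : Subgroup A) := by
  apply IsPGroup.to_sup_of_normal_right' (isPGroup_zpowers_of_sq φ hφ)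
    (isPGroup_zpowers_of_sq ψ hψ)
  rw [Subgroup.zpowers_le]
  rw [Subgroup.mem_normalizer_iff]
  intro h
  have key : ∀ h : A, h ∈ Subgroup.zpowers ψ → φ * h * φ⁻¹ = h := by
    intro h hh
    obtain ⟨n, rfl⟩ := Subgroup.mem_zpowers_iff.mp hh
    have : Commute φ (ψ ^ n) := Commute.zpow_right hc n
    rw [this.eq, mul_inv_cancel_right]
  constructor
  · intro hh
    rw [key h hh]
    exact hh
  · intro hh
    have := key _ hh
    have h2 : φ * h * φ⁻¹ = h := by
      have h3 : φ⁻¹ * (φ * (φ * h * φ⁻¹) * φ⁻¹) * φ = φ⁻¹ * (φ * h * φ⁻¹) * φ := by rw [this]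
      simpa [mul_assoc] using h3
    rw [← h2]
    exact hh

/-- an invariant Sylow subgroup for two commuting involutions acting on a group of odd order -/
theorem exists_invariant_sylow {Γ : Type u} [Group Γ] [Finite Γ] (G : Subgroup Γ) [G.Normal]
    (v w : Γ) (hv : v * v = 1) (hw : w * w = 1) (hc : v * w = w * v) (hodd : ¬ 2 ∣ Nat.card G)
    (p : ℕ) [Fact p.Prime] :
    ∃ P : Subgroup Γ, P ≤ G ∧ IsPGroup p P ∧ Nat.card P = p ^ (Nat.card G).factorization p ∧
      (∀ x ∈ P, v * x * v⁻¹ ∈ P) ∧ (∀ x ∈ P, w * x * w⁻¹ ∈ P) := by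
  have hφ : (MulAut.conjNormal v : MulAut G) * MulAut.conjNormal v = 1 := by
    rw [← map_mul, hv, map_one]
  have hψ : (MulAut.conjNormal w : MulAut G) * MulAut.conjNormal w = 1 := by
    rw [← map_mul, hw, map_one]
  have hcc : (MulAut.conjNormal v : MulAut G) * MulAut.conjNormal w =
      MulAut.conjNormal w * MulAut.conjNormal v := by
    rw [← map_mul, ← map_mul, hc]
  have hA := isPGroup_sup_zpowers _ _ hφ hψ hcc
  have hcard : ¬ 2 ∣ Nat.card (Sylow p G) := by
    intro h2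
    apply hodd
    obtain ⟨P0⟩ : Nonempty (Sylow p G) := inferInstance
    exact h2.trans ((Sylow.card_dvd_index P0).trans (Subgroup.index_dvd_card _))
  obtain ⟨P, hP⟩ := hA.nonempty_fixed_point_of_prime_not_dvd_card (Sylow p G) hcard
  have hPv : (MulAut.conjNormal v : MulAut G) • P = P :=
    hP ⟨MulAut.conjNormal v, Subgroup.mem_sup_left (Subgroup.mem_zpowers _)⟩
  have hPw : (MulAut.conjNormal w : MulAut G) • P = P :=
    hP ⟨MulAut.conjNormal w, Subgroup.mem_sup_right (Subgroup.mem_zpowers _)⟩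
  have inv : ∀ u : Γ, (MulAut.conjNormal u : MulAut G) • P = P →
      ∀ x ∈ (P : Subgroup G).map G.subtype, u * x * u⁻¹ ∈ (P : Subgroup G).map G.subtype := by
    intro u hu x hx
    obtain ⟨y, hy, rfl⟩ := hx
    refine ⟨MulAut.conjNormal u y, ?_, ?_⟩
    · have h1 : (MulAut.conjNormal u : MulAut G) • y ∈
          (MulAut.conjNormal u : MulAut G) • (P : Subgroup G) :=
        Subgroup.smul_mem_pointwise_smul _ _ _ hy
      have h2 : (((MulAut.conjNormal u : MulAut G) • P : Sylow p G) : Subgroup G) =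
          (MulAut.conjNormal u : MulAut G) • (P : Subgroup G) := Sylow.pointwise_smul_def
      rw [← h2, hu] at h1
      exact h1
    · simp [MulAut.conjNormal_apply]
  refine ⟨(P : Subgroup G).map G.subtype, Subgroup.map_subtype_le _, P.isPGroup'.map _, ?_,
    inv v hPv, inv w hPw⟩
  rw [Subgroup.card_subtype, Sylow.card_eq_multiplicity]

theorem main (hPG : PG.{u}) : ODD.{u} := by
  intro c Γ _ _ G v w hS ha
  haveI := hS.normal
  have hGpos : 0 < Nat.card G := Nat.card_pos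
  have hodd : ¬ 2 ∣ Nat.card G := by
    intro h2
    have : 0 < (Nat.card G).factorization 2 :=
      Nat.Prime.factorization_pos_of_dvd Nat.prime_two hGpos.ne' h2
    omega
  obtain ⟨a, ha_def⟩ : ∃ a, a = Nat.card ↥(G ⊓ Subgroup.centralizer ({v} : Set Γ)) := ⟨_, rfl⟩
  obtain ⟨b, hb_def⟩ : ∃ b, b = Nat.card ↥(G ⊓ Subgroup.centralizer ({w} : Set Γ)) := ⟨_, rfl⟩
  obtain ⟨d, hd_def⟩ : ∃ d, d = Nat.card ↥(G ⊓ Subgroup.centralizer ({v * w} : Set Γ)) :=
    ⟨_, rfl⟩
  have hale : a ≤ c := ha_def ▸ hS.cent v (Or.inl rfl)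
  have hble : b ≤ c := hb_def ▸ hS.cent w (Or.inr (Or.inl rfl))
  have hdle : d ≤ c := hd_def ▸ hS.cent (v * w) (Or.inr (Or.inr rfl))
  have hapos : a ≠ 0 := ha_def ▸ Nat.card_pos.ne'
  have hbpos : b ≠ 0 := hb_def ▸ Nat.card_pos.ne'
  have hdpos : d ≠ 0 := hd_def ▸ Nat.card_pos.ne'
  have key : ∀ p : ℕ, p.Prime →
      (Nat.card G).factorization p ≤ (a * b * d).factorization p := by
    intro p hp
    haveI : Fact p.Prime := ⟨hp⟩
    by_cases hpG : p ∣ Nat.card G
    swap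
    · rw [Nat.factorization_eq_zero_of_not_dvd hpG]
      exact Nat.zero_le _
    have hp2 : p ≠ 2 := by
      rintro rfl
      exact hodd hpG
    obtain ⟨P, hPG', hPp, hPc, hPv, hPw⟩ :=
      exists_invariant_sylow G v w hS.v_sq hS.w_sq hS.comm hodd p
    have h1 := hPG Γ p hp hp2 P v w hPp hS.v_sq hS.w_sq hS.comm hPv hPw
    have hcx : ∀ x : Γ, ∃ e, Nat.card ↥(P ⊓ Subgroup.centralizer ({x} : Set Γ)) = p ^ e ∧
        e ≤ (Nat.card ↥(G ⊓ Subgroup.centralizer ({x} : Set Γ))).factorization p := by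
      intro x
      have hq : IsPGroup p ↥(P ⊓ Subgroup.centralizer ({x} : Set Γ)) := hPp.to_le inf_le_left
      obtain ⟨e, he⟩ := IsPGroup.iff_card.mp hq
      refine ⟨e, he, ?_⟩
      have hle : P ⊓ Subgroup.centralizer ({x} : Set Γ) ≤
          G ⊓ Subgroup.centralizer ({x} : Set Γ) := inf_le_inf_right _ hPG'
      have hd := Subgroup.card_dvd_of_le hle
      rw [he] at hd
      exact (Nat.Prime.pow_dvd_iff_le_factorization hp Nat.card_pos.ne').mp hd
    obtain ⟨e1, he1, hle1⟩ := hcx v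
    obtain ⟨e2, he2, hle2⟩ := hcx w
    obtain ⟨e3, he3, hle3⟩ := hcx (v * w)
    rw [hPc, he1, he2, he3, ← pow_add, ← pow_add] at h1
    have h2 : (Nat.card G).factorization p ≤ e1 + e2 + e3 :=
      (Nat.pow_le_pow_iff_right hp.one_lt).mp h1
    rw [Nat.factorization_mul (Nat.mul_ne_zero hapos hbpos) hdpos,
      Nat.factorization_mul hapos hbpos]
    simp only [Finsupp.coe_add, Pi.add_apply]
    rw [← ha_def] at hle1
    rw [← hb_def] at hle2
    rw [← hd_def] at hle3
    omega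
  have hdvd : Nat.card G ∣ a * b * d :=
    (Nat.factorization_prime_le_iff_dvd hGpos.ne'
      (Nat.mul_ne_zero (Nat.mul_ne_zero hapos hbpos) hdpos)).mp key
  calc Nat.card G ≤ a * b * d :=
        Nat.le_of_dvd (Nat.pos_of_ne_zero (Nat.mul_ne_zero (Nat.mul_ne_zero hapos hbpos) hdpos))
          hdvd
    _ ≤ c * c * c := Nat.mul_le_mul (Nat.mul_le_mul hale hble) hdle
    _ = c ^ 3 := by ring

end Cfsg.Agent.Lib.Helper22.DCODD
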