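import Mathlib
import Cfsg.Agent.Lib.Helper44.MFldStmt

set_option autoImplicit false

/-! S2737 piece [RK]: a quadratic extension of a finite field contains a root of every
anisotropic binary form. -/

namespace Cfsg.Agent.Lib.Helper22.MFldRK

universe u

theorem rootK (F : Type u) [Field F] [Fintype F] (a b : F)
    (hab : ∀ z₁ z₂ : F, z₁ ^ 2 + a * z₁ * z₂ + b * z₂ ^ 2 = 0 → z₁ = 0 ∧ z₂ = 0)
    (K : Type u) [Field K] [Algebra F K] (hK : Module.finrank F K = 2) :
    ∃ ρ : K, ρ ^ 2 + algebraMap F K a * ρ + algebraMap F K b = 0 := by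
  classical
  set p : Polynomial F := Polynomial.X ^ 2 + Polynomial.C a * Polynomial.X + Polynomial.C b
    with hp
  have hmonic : p.Monic := by
    rw [hp]; monicity!
  have hdeg : p.natDegree = 2 := by
    rw [hp]; compute_degree!
  have hroots : p.roots = 0 := by
    rw [Multiset.eq_zero_iff_forall_notMem]
    intro z hz
    rw [Polynomial.mem_roots hmonic.ne_zero, Polynomial.IsRoot.def] at hz
    have h1 : z ^ 2 + a * z * 1 + b * 1 ^ 2 = 0 := by
      have : Polynomial.eval z p = z ^ 2 + a * z + b := by simp [hp]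
      rw [this] at hz
      linear_combination hz
    exact one_ne_zero (hab z 1 h1).2
  have hirr : Irreducible p :=
    (hmonic.irreducible_iff_roots_eq_zero_of_degree_le_three (by omega) (by omega)).2 hroots
  haveI : Fact (Irreducible p) := ⟨hirr⟩
  have hfinL : Module.finrank F (AdjoinRoot p) = 2 := by
    rw [(AdjoinRoot.powerBasis hmonic.ne_zero).finrank, AdjoinRoot.powerBasis_dim, hdeg]
  haveI : Module.Finite F (AdjoinRoot p) := Module.finite_of_finrank_pos (by omega)
  haveI : Finite (AdjoinRoot p) := Module.finite_of_finite F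
  haveI : Fintype (AdjoinRoot p) := Fintype.ofFinite _
  have hcardL : Fintype.card (AdjoinRoot p) = Fintype.card F ^ 2 := by
    rw [Module.card_eq_pow_finrank (K := F), hfinL]
  haveI : Module.Finite F K := Module.finite_of_finrank_pos (by omega)
  haveI : Finite K := Module.finite_of_finite F
  haveI : Fintype K := Fintype.ofFinite _
  have hcardK : Fintype.card K = Fintype.card F ^ 2 := by
    rw [Module.card_eq_pow_finrank (K := F), hK]
  have hdvd : p ∣ (Polynomial.X ^ (Fintype.card F ^ 2) - Polynomial.X : Polynomial F) := by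
    rw [← AdjoinRoot.mk_eq_zero]
    rw [map_sub, map_pow, ← hcardL, FiniteField.pow_card, sub_self]
  have hdvdK : p.map (algebraMap F K) ∣
      (Polynomial.X ^ (Fintype.card K) - Polynomial.X : Polynomial K) := by
    have := Polynomial.map_dvd (algebraMap F K) hdvd
    rwa [Polynomial.map_sub, Polynomial.map_pow, Polynomial.map_X, ← hcardK] at this
  have hne : (Polynomial.X ^ (Fintype.card K) - Polynomial.X : Polynomial K) ≠ 0 :=
    FiniteField.X_pow_card_sub_X_ne_zero K Fintype.one_lt_card
  have hsplit : (Polynomial.X ^ (Fintype.card K) - Polynomial.X : Polynomial K).Splits := by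
    rw [Polynomial.splits_iff_card_roots, FiniteField.roots_X_pow_card_sub_X,
      FiniteField.X_pow_card_sub_X_natDegree_eq K Fintype.one_lt_card]
    rfl
  have hsp : (p.map (algebraMap F K)).Splits := hsplit.of_dvd hne hdvdK
  obtain ⟨ρ, hρ⟩ := hsp.exists_eval_eq_zero (by
    rw [Polynomial.degree_map, Polynomial.degree_eq_natDegree hmonic.ne_zero, hdeg]; norm_num)
  refine ⟨ρ, ?_⟩
  have : Polynomial.eval ρ (p.map (algebraMap F K)) =
      ρ ^ 2 + algebraMap F K a * ρ + algebraMap F K b := by
    simp [hp]
  rw [← this]; exact hρ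

theorem main : Cfsg.Agent.Lib.Helper44.MFldStmt.RootK.{u} := by
  intro F _ _ a b hab K _ _ hK
  exact rootK F a b hab K hK

end Cfsg.Agent.Lib.Helper22.MFldRK
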