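import Mathlib
import Cfsg.Agent.Lib.Helper78.PRQC1
import Cfsg.Agent.Lib.CT.Kernel
import Cfsg.Agent.Lib.CT.Ops
import Cfsg.Agent.Lib.CT.Clifford
import Cfsg.Agent.Lib.CT.Wedderburn

/-!
# S0998: two character-theoretic interface lemmas (pieces P3a and P3b)
-/

set_option autoImplicit false

namespace Cfsg.Agent.Lib.Helper22.PRQChar

open Cfsg

open scoped ComplexConjugate

universe u

/-- [P3a] The sum of a character over a subgroup is a natural multiple of the order. -/
theorem sum_subgroup_nat {G : Type u} [Group G] [Finite G] (H : Subgroup G) [Fintype H]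
    {Φ : G → ℂ} (hΦ : IsCharacter G Φ) :
    ∃ n : ℕ, ∑ x : H, Φ (x : G) = (Nat.card H : ℂ) * (n : ℂ) := by
  have hr : IsCharacter H (fun k : H => Φ k) :=
    Cfsg.Agent.Lib.CT.Ops.isCharacter_restrict H hΦ
  obtain ⟨n, hn⟩ := Cfsg.Agent.Lib.CT.Clifford.classInner_char_nat hr
    (Cfsg.Agent.Lib.CT.Wedderburn.isCharacter_of_irr (Cfsg.Agent.Lib.Helper17.ExcMain.trivIrr H).2)
  refine ⟨n, ?_⟩
  have hne : (Nat.card H : ℂ) ≠ 0 := Nat.cast_ne_zero.mpr Nat.card_pos.ne'
  have h2 : classInner (fun k : H => Φ k)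
      (Cfsg.Agent.Lib.Helper17.ExcMain.trivIrr H : H → ℂ) =
      (Nat.card H : ℂ)⁻¹ * ∑ x : H, Φ (x : G) := by
    unfold classInner
    congr 1
    apply Finset.sum_congr rfl
    intro x _
    rw [Cfsg.Agent.Lib.Helper17.ExcMain.trivIrr_apply]
    simp
  rw [h2] at hn
  rw [← hn, ← mul_assoc, mul_inv_cancel₀ hne, one_mul]

/-- [P3b] Nontrivial irreducible characters of a nonabelian simple group are faithful. -/
theorem eq_one_of_apply_eq {G : Type u} [Group G] [Finite G] [IsSimpleGroup G] (hG : ¬ IsCyclic G)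
    (χ : IrrCharacter G) (hχ : ¬ ∀ g : G, (χ : G → ℂ) g = 1) (g : G)
    (hg : (χ : G → ℂ) g = (χ : G → ℂ) 1) : g = 1 := by
  obtain ⟨N, hN, hmem⟩ :=
    Cfsg.Agent.Lib.CT.Kernel.exists_normal_ker (Cfsg.Agent.Lib.CT.Wedderburn.isCharacter_of_irr χ.2)
  rcases hN.eq_bot_or_eq_top with h | h
  · have hgN : g ∈ N := (hmem g).2 hg
    rw [h] at hgN
    exact Subgroup.mem_bot.1 hgN
  · exfalso
    have hconst : ∀ x : G, (χ : G → ℂ) x = (χ : G → ℂ) 1 := fun x =>
      (hmem x).1 (h ▸ Subgroup.mem_top x)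
    letI := Fintype.ofFinite G
    have horth := Cfsg.Agent.Lib.CT.Wedderburn.irr_orthonormal χ χ
    rw [if_pos rfl] at horth
    unfold classInner at horth
    have h1 := Cfsg.Agent.Lib.Helper78.PRQC1.apply_one_eq χ
    have hne : (Nat.card G : ℂ) ≠ 0 := Nat.cast_ne_zero.mpr Nat.card_pos.ne'
    have hsum : ∑ x : G, (χ : G → ℂ) x * conj ((χ : G → ℂ) x) =
        (Nat.card G : ℂ) * (((charDegree (χ : G → ℂ) : ℤ) : ℂ) *
          ((charDegree (χ : G → ℂ) : ℤ) : ℂ)) := by
      have : ∀ x : G, (χ : G → ℂ) x * conj ((χ : G → ℂ) x) =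
          ((charDegree (χ : G → ℂ) : ℤ) : ℂ) * ((charDegree (χ : G → ℂ) : ℤ) : ℂ) := by
        intro x
        rw [hconst x, h1]
        simp
      rw [Finset.sum_congr rfl (fun x _ => this x), Finset.sum_const, Finset.card_univ,
        nsmul_eq_mul, Nat.card_eq_fintype_card]
    rw [hsum, ← mul_assoc, inv_mul_cancel₀ hne, one_mul] at horth
    have hd : charDegree (χ : G → ℂ) * charDegree (χ : G → ℂ) = 1 := by
      have : (((charDegree (χ : G → ℂ) * charDegree (χ : G → ℂ) : ℕ) : ℤ) : ℂ) = ((1 : ℕ) : ℂ) := by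
        push_cast
        push_cast at horth
        exact horth
      exact_mod_cast this
    have hd1 : charDegree (χ : G → ℂ) = 1 := by
      exact Nat.eq_one_of_mul_eq_one_left hd
    apply hχ
    intro x
    rw [hconst x, h1, hd1]
    simp

end Cfsg.Agent.Lib.Helper22.PRQChar
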