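import Mathlib

set_option autoImplicit false

/-!
helper22: the pure counting lemma behind "Lemma X" (a TI-set of density `> 1/2` attached to an
element `z` of prime order `q`).

`C`, `B` commuting subgroups of coprime orders of a finite group `G`, `z ∈ Z(B)` of prime order
`q`, `T = {c * b : c ∈ C ∖ 1, b ∈ B, q ∣ orderOf b}`.  If `g T g⁻¹ ∩ T ≠ ∅` forces `g ∈ C ⊔ B` and
`|C| q < 2 (|C| - 1)(q - 1)`, then the conjugates of `T` cover more than half of `G`.
-/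

namespace Cfsg.Agent.Lib.Helper22.XPure

universe u

/-- The `q`-regular elements of `B` are at most `|B| / q`: `q * #{b : q ∤ o(b)} ≤ |B|`. -/
theorem card_regular_le {G : Type u} [Group G] [Finite G] (B : Subgroup G) (z : G) (q : ℕ)
    (hq : q.Prime) (hzB : z ∈ B) (hzo : orderOf z = q) (hzc : ∀ b ∈ B, z * b = b * z) :
    q * Set.ncard {b : B | ¬ q ∣ orderOf (b : G)} ≤ Nat.card B := by
  classical
  let Br : Set B := {b : B | ¬ q ∣ orderOf (b : G)}
  let f : B × Fin q → B := fun p => p.1 * (⟨z, hzB⟩ : B) ^ (p.2 : ℕ)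
  have hinj : Set.InjOn f (Br ×ˢ (Set.univ : Set (Fin q))) := by
    rintro ⟨b, i⟩ ⟨hb, -⟩ ⟨b', j⟩ ⟨hb', -⟩ heq
    have hb1 : ¬ q ∣ orderOf (b : G) := hb
    have hb1' : ¬ q ∣ orderOf (b' : G) := hb'
    have heq' : (b : G) * z ^ (i : ℕ) = (b' : G) * z ^ (j : ℕ) := by
      have := congrArg Subtype.val heq
      simpa [f] using this
    obtain ⟨m, hm⟩ : ∃ m : ℕ, m = orderOf (b : G) * orderOf (b' : G) := ⟨_, rfl⟩
    have hmq : Nat.Coprime m q := by
      rw [hm]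
      exact Nat.Coprime.mul_left ((Nat.Coprime.symm ((Nat.Prime.coprime_iff_not_dvd hq).2 hb1)))
        ((Nat.Coprime.symm ((Nat.Prime.coprime_iff_not_dvd hq).2 hb1')))
    have hzb : Commute z (b : G) := hzc b b.2
    have hzb' : Commute z (b' : G) := hzc b' b'.2
    have hc1 : Commute (b : G) (z ^ (i : ℕ)) := (hzb.pow_left _).symm
    have hc2 : Commute (b' : G) (z ^ (j : ℕ)) := (hzb'.pow_left _).symm
    have hbm : (b : G) ^ m = 1 := by
      rw [hm, pow_mul, pow_orderOf_eq_one, one_pow]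
    have hbm' : (b' : G) ^ m = 1 := by
      rw [hm, mul_comm, pow_mul, pow_orderOf_eq_one, one_pow]
    have h1 : z ^ ((i : ℕ) * m) = z ^ ((j : ℕ) * m) := by
      have h2 : ((b : G) * z ^ (i : ℕ)) ^ m = ((b' : G) * z ^ (j : ℕ)) ^ m := by rw [heq']
      rw [hc1.mul_pow, hc2.mul_pow, hbm, hbm', one_mul, one_mul, ← pow_mul, ← pow_mul] at h2
      exact h2
    have h3 : (i : ℕ) * m ≡ (j : ℕ) * m [MOD q] := by
      have h3' := pow_eq_pow_iff_modEq.1 h1
      rw [hzo] at h3'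
      exact h3'
    have h4 : (i : ℕ) ≡ (j : ℕ) [MOD q] :=
      Nat.ModEq.cancel_right_of_coprime (Nat.Coprime.symm hmq) h3
    have h5 : (i : ℕ) = (j : ℕ) := Nat.ModEq.eq_of_lt_of_lt h4 i.2 j.2
    have hij : i = j := Fin.ext h5
    subst hij
    have hbb : (b : G) = b' := mul_right_cancel heq'
    rw [Subtype.ext hbb]
  have h1 : (Br ×ˢ (Set.univ : Set (Fin q))).ncard = Br.ncard * q := by
    rw [Set.ncard_prod, Set.ncard_univ, Nat.card_fin]
  have h2 : (f '' (Br ×ˢ (Set.univ : Set (Fin q)))).ncard ≤ Nat.card B := by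
    have := Set.ncard_le_ncard (Set.subset_univ (f '' (Br ×ˢ (Set.univ : Set (Fin q)))))
      (Set.toFinite _)
    rwa [Set.ncard_univ] at this
  rw [Set.InjOn.ncard_image hinj, h1] at h2
  rw [mul_comm]
  exact h2

/-- The main counting lemma. -/
theorem main {G : Type u} [Group G] [Finite G] (C B : Subgroup G) (z : G) (q : ℕ)
    (hq : q.Prime) (hzB : z ∈ B) (hzo : orderOf z = q) (hzc : ∀ b ∈ B, z * b = b * z)
    (hCB : ∀ c ∈ C, ∀ b ∈ B, c * b = b * c) (hcop : (Nat.card C).Coprime (Nat.card B))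
    (hnum : Nat.card C * q < 2 * ((Nat.card C - 1) * (q - 1)))
    (hTI : ∀ c ∈ C, c ≠ 1 → ∀ b ∈ B, q ∣ orderOf b → ∀ c' ∈ C, c' ≠ 1 → ∀ b' ∈ B,
      q ∣ orderOf b' → ∀ g : G, g * (c * b) * g⁻¹ = c' * b' → g ∈ C ⊔ B) :
    Nat.card G < 2 * Set.ncard {a : G | ∃ g : G, ∃ c ∈ C, c ≠ 1 ∧ ∃ b ∈ B, q ∣ orderOf b ∧
      a = g * (c * b) * g⁻¹} := by
  classical
  set L := C ⊔ B with hL
  have hinf : C ⊓ B = ⊥ := by
    rw [eq_bot_iff]
    intro x hx
    rw [Subgroup.mem_bot]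
    have h1 : orderOf x ∣ Nat.card C := Subgroup.orderOf_dvd_natCard C hx.1
    have h2 : orderOf x ∣ Nat.card B := Subgroup.orderOf_dvd_natCard B hx.2
    have h3 : orderOf x ∣ 1 := by
      have := Nat.dvd_gcd h1 h2
      rwa [hcop] at this
    exact orderOf_eq_one_iff.mp (Nat.dvd_one.mp h3)
  let Bs : Set B := {b : B | q ∣ orderOf (b : G)}
  let f : (G ⧸ L) × C × B → G :=
    fun p => p.1.out * ((p.2.1 : G) * (p.2.2 : G)) * (p.1.out)⁻¹
  let D : Set ((G ⧸ L) × C × B) := Set.univ ×ˢ (({1}ᶜ : Set C) ×ˢ Bs)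
  have hD : D.ncard = L.index * ((Nat.card C - 1) * Bs.ncard) := by
    rw [Set.ncard_prod, Set.ncard_prod, Set.ncard_univ, Set.ncard_compl,
      Set.ncard_singleton, Subgroup.index_eq_card]
  have hinj : Set.InjOn f D := by
    rintro ⟨p, c, b⟩ ⟨-, hc, hb⟩ ⟨p', c', b'⟩ ⟨-, hc', hb'⟩ heq
    have hc1 : (c : G) ≠ 1 := fun h => hc (Subtype.ext h)
    have hc1' : (c' : G) ≠ 1 := fun h => hc' (Subtype.ext h)
    have hb1 : q ∣ orderOf (b : G) := hb
    have hb1' : q ∣ orderOf (b' : G) := hb'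
    have heq' : p.out * ((c : G) * (b : G)) * (p.out)⁻¹ =
        p'.out * ((c' : G) * (b' : G)) * (p'.out)⁻¹ := heq
    have h1 : (p'.out⁻¹ * p.out) * ((c : G) * b) * (p'.out⁻¹ * p.out)⁻¹ = (c' : G) * b' := by
      calc (p'.out⁻¹ * p.out) * ((c : G) * b) * (p'.out⁻¹ * p.out)⁻¹
          = p'.out⁻¹ * (p.out * ((c : G) * b) * p.out⁻¹) * p'.out := by group
        _ = p'.out⁻¹ * (p'.out * ((c' : G) * b') * p'.out⁻¹) * p'.out := by rw [heq']
        _ = (c' : G) * b' := by group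
    have h2 : p'.out⁻¹ * p.out ∈ L :=
      hTI c c.2 hc1 b b.2 hb1 c' c'.2 hc1' b' b'.2 hb1' _ h1
    have hp : p = p' := by
      have : (p'.out : G ⧸ L) = (p.out : G ⧸ L) := QuotientGroup.eq.mpr h2
      rw [QuotientGroup.out_eq', QuotientGroup.out_eq'] at this
      exact this.symm
    subst hp
    have h3 : (c : G) * b = (c' : G) * b' := mul_left_cancel (mul_right_cancel heq')
    have h4 : (c' : G)⁻¹ * c = (b' : G) * (b : G)⁻¹ := by
      calc (c' : G)⁻¹ * c = (c' : G)⁻¹ * ((c : G) * b) * (b : G)⁻¹ := by group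
        _ = (c' : G)⁻¹ * ((c' : G) * b') * (b : G)⁻¹ := by rw [h3]
        _ = (b' : G) * (b : G)⁻¹ := by group
    have h5 : (c' : G)⁻¹ * c ∈ C ⊓ B :=
      ⟨C.mul_mem (C.inv_mem c'.2) c.2, by rw [h4]; exact B.mul_mem b'.2 (B.inv_mem b.2)⟩
    rw [hinf, Subgroup.mem_bot] at h5
    have hcc : (c : G) = c' := by rw [inv_mul_eq_one] at h5; exact h5.symm
    have hbb : (b : G) = b' := by rw [hcc] at h3; exact mul_left_cancel h3
    have hc2 : c = c' := Subtype.ext hcc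
    have hb2 : b = b' := Subtype.ext hbb
    rw [hc2, hb2]
  have hsub : f '' D ⊆ {a : G | ∃ g : G, ∃ c ∈ C, c ≠ 1 ∧ ∃ b ∈ B, q ∣ orderOf b ∧
      a = g * (c * b) * g⁻¹} := by
    rintro _ ⟨⟨p, c, b⟩, ⟨-, hc, hb⟩, rfl⟩
    exact ⟨p.out, c, c.2, fun h => hc (Subtype.ext h), b, b.2, hb, rfl⟩
  have h3 : L.index * ((Nat.card C - 1) * Bs.ncard) ≤ Set.ncard {a : G | ∃ g : G, ∃ c ∈ C,
      c ≠ 1 ∧ ∃ b ∈ B, q ∣ orderOf b ∧ a = g * (c * b) * g⁻¹} := by
    calc L.index * ((Nat.card C - 1) * Bs.ncard) = D.ncard := hD.symm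
      _ = (f '' D).ncard := (Set.InjOn.ncard_image hinj).symm
      _ ≤ _ := Set.ncard_le_ncard hsub (Set.toFinite _)
  -- the `q`-singular elements of `B`
  have h2 : (q - 1) * Nat.card B ≤ q * Bs.ncard := by
    have hr := card_regular_le B z q hq hzB hzo hzc
    have hcompl : Bs.ncard + (Bsᶜ).ncard = Nat.card B := Set.ncard_add_ncard_compl Bs
    have hBr : (Bsᶜ : Set B) = {b : B | ¬ q ∣ orderOf (b : G)} := rfl
    rw [hBr] at hcompl
    have hq1 : 1 ≤ q := hq.one_lt.le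
    have e1 : q * Bs.ncard + q * Set.ncard {b : B | ¬ q ∣ orderOf (b : G)}
        = (q - 1) * Nat.card B + Nat.card B := by
      rw [← mul_add, hcompl]
      have : q = (q - 1) + 1 := by omega
      nth_rewrite 1 [this]
      ring
    omega
  -- `|G| ≤ |G : L| |C| |B|`
  have hLle : Nat.card L ≤ Nat.card C * Nat.card B := by
    have hle : B ≤ Subgroup.normalizer (C : Set G) := by
      intro b hb
      rw [Subgroup.mem_normalizer_iff]
      intro c
      have key : ∀ c : G, c ∈ C → b * c * b⁻¹ ∈ C := by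
        intro c hc
        have : b * c * b⁻¹ = c := by rw [← hCB c hc b hb]; group
        rw [this]; exact hc
      constructor
      · exact key c
      · intro h
        have h' : b⁻¹ * (b * c * b⁻¹) * (b⁻¹)⁻¹ ∈ C := by
          have hc' := h
          have e : b⁻¹ * (b * c * b⁻¹) * (b⁻¹)⁻¹ = b * c * b⁻¹ := by
            have hcomm := hCB (b * c * b⁻¹) h b hb
            calc b⁻¹ * (b * c * b⁻¹) * (b⁻¹)⁻¹ = b⁻¹ * ((b * c * b⁻¹) * b) := by group
              _ = b⁻¹ * (b * (b * c * b⁻¹)) := by rw [hcomm]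
              _ = b * c * b⁻¹ := by group
          rw [e]; exact hc'
        have e2 : b⁻¹ * (b * c * b⁻¹) * (b⁻¹)⁻¹ = c := by group
        rwa [e2] at h'
    have hcoe := Subgroup.coe_mul_of_right_le_normalizer_left C B hle
    let g : C × B → L := fun p =>
      ⟨(p.1 : G) * (p.2 : G), Subgroup.mul_mem _ (Subgroup.mem_sup_left p.1.2)
        (Subgroup.mem_sup_right p.2.2)⟩
    have hsurj : Function.Surjective g := by
      rintro ⟨x, hx⟩
      have hx' : x ∈ ((C ⊔ B : Subgroup G) : Set G) := hx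
      rw [hcoe] at hx'
      obtain ⟨c, hc, b, hb, rfl⟩ := Set.mem_mul.mp hx'
      exact ⟨(⟨c, hc⟩, ⟨b, hb⟩), rfl⟩
    have := Nat.card_le_card_of_surjective g hsurj
    rwa [Nat.card_prod] at this
  have h1 : Nat.card G ≤ L.index * (Nat.card C * Nat.card B) := by
    rw [← Subgroup.index_mul_card L]
    exact Nat.mul_le_mul_left _ hLle
  have hpos : 0 < L.index * (Nat.card C * Nat.card B) := by
    have hi : 0 < L.index := Nat.pos_of_ne_zero (Subgroup.index_ne_zero_of_finite)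
    have hc : 0 < Nat.card C := Nat.card_pos
    have hb : 0 < Nat.card B := Nat.card_pos
    positivity
  by_contra hcon
  rw [not_lt] at hcon
  obtain ⟨t, ht⟩ : ∃ t : ℕ, t = Set.ncard {a : G | ∃ g : G, ∃ c ∈ C,
      c ≠ 1 ∧ ∃ b ∈ B, q ∣ orderOf b ∧ a = g * (c * b) * g⁻¹} := ⟨_, rfl⟩
  rw [← ht] at hcon h3
  obtain ⟨nC, hnC⟩ : ∃ n : ℕ, n = Nat.card C := ⟨_, rfl⟩
  obtain ⟨nB, hnB⟩ : ∃ n : ℕ, n = Nat.card B := ⟨_, rfl⟩
  obtain ⟨N, hN⟩ : ∃ n : ℕ, n = Nat.card G := ⟨_, rfl⟩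
  obtain ⟨s, hs⟩ : ∃ n : ℕ, n = Bs.ncard := ⟨_, rfl⟩
  obtain ⟨i, hi⟩ : ∃ n : ℕ, n = L.index := ⟨_, rfl⟩
  rw [← hnC, ← hnB, ← hN, ← hi] at h1
  rw [← hnC, ← hs, ← hi] at h3
  rw [← hnB, ← hs] at h2
  rw [← hnC] at hnum
  rw [← hnC, ← hnB, ← hi] at hpos
  rw [← hN] at hcon
  have key : 2 * ((nC - 1) * (q - 1)) * (i * (nC * nB)) ≤ (nC * q) * (i * (nC * nB)) := by
    calc 2 * ((nC - 1) * (q - 1)) * (i * (nC * nB))
        = 2 * (i * ((nC - 1) * ((q - 1) * nB))) * nC := by ring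
      _ ≤ 2 * (i * ((nC - 1) * (q * s))) * nC := by gcongr
      _ = 2 * (i * ((nC - 1) * s)) * (nC * q) := by ring
      _ ≤ 2 * t * (nC * q) := by gcongr
      _ ≤ N * (nC * q) := by gcongr
      _ ≤ (i * (nC * nB)) * (nC * q) := by gcongr
      _ = (nC * q) * (i * (nC * nB)) := by ring
  have key2 := (Nat.mul_lt_mul_right hpos).2 hnum
  exact absurd key (not_le.2 key2)

end Cfsg.Agent.Lib.Helper22.XPure
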