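import Mathlib
import Cfsg.Agent.Lib.Helper9.S51IStmt
import Cfsg.Agent.Lib.Helper22.XPure

set_option autoImplicit false

/-!
helper22: piece XPURE of helper9's S1351 (case (i)) call.
-/

namespace Cfsg.Agent.Lib.Helper22.S51XPURE

universe u

open Cfsg Cfsg.Agent.Lib.Helper9.S51IStmt

theorem main : Cfsg.Agent.Lib.Helper9.S51IStmt.XPure.{u} := by
  intro G _ _ C B z q hq hCB hcop hzB hzo hzc hTI
  classical
  set L := C ⊔ B with hL
  have hinf : C ⊓ B = ⊥ := by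
    rw [eq_bot_iff]
    intro x hx
    rw [Subgroup.mem_bot]
    have h1 : orderOf x ∣ Nat.card C := Subgroup.orderOf_dvd_natCard C hx.1
    have h2 : orderOf x ∣ Nat.card B := Subgroup.orderOf_dvd_natCard B hx.2
    have h3 : orderOf x ∣ 1 := by
      have := Nat.dvd_gcd h1 h2
      rwa [hcop] at this
    exact orderOf_eq_one_iff.mp (Nat.dvd_one.mp h3)
  let Bs : Set B := {b : B | q ∣ orderOf (b : G)}
  let f : (G ⧸ L) × C × B → G :=
    fun p => p.1.out * ((p.2.1 : G) * (p.2.2 : G)) * (p.1.out)⁻¹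
  let D : Set ((G ⧸ L) × C × B) := Set.univ ×ˢ (({1}ᶜ : Set C) ×ˢ Bs)
  have hD : D.ncard = L.index * ((Nat.card C - 1) * Bs.ncard) := by
    rw [Set.ncard_prod, Set.ncard_prod, Set.ncard_univ, Set.ncard_compl,
      Set.ncard_singleton, Subgroup.index_eq_card]
  have hT : ∀ c : C, ∀ b : B, c ≠ 1 → q ∣ orderOf (b : G) → (c : G) * (b : G) ∈ TS C B q := by
    intro c b hc hb
    exact ⟨c, c.2, fun h => hc (Subtype.ext h), b, b.2, hb, rfl⟩
  have hinj : Set.InjOn f D := by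
    rintro ⟨p, c, b⟩ ⟨-, hc, hb⟩ ⟨p', c', b'⟩ ⟨-, hc', hb'⟩ heq
    have hc1 : c ≠ 1 := hc
    have hc1' : c' ≠ 1 := hc'
    have hb1 : q ∣ orderOf (b : G) := hb
    have hb1' : q ∣ orderOf (b' : G) := hb'
    have heq' : p.out * ((c : G) * (b : G)) * (p.out)⁻¹ =
        p'.out * ((c' : G) * (b' : G)) * (p'.out)⁻¹ := heq
    have h1 : (p'.out⁻¹ * p.out) * ((c : G) * b) * (p'.out⁻¹ * p.out)⁻¹ = (c' : G) * b' := by
      calc (p'.out⁻¹ * p.out) * ((c : G) * b) * (p'.out⁻¹ * p.out)⁻¹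
          = p'.out⁻¹ * (p.out * ((c : G) * b) * p.out⁻¹) * p'.out := by group
        _ = p'.out⁻¹ * (p'.out * ((c' : G) * b') * p'.out⁻¹) * p'.out := by rw [heq']
        _ = (c' : G) * b' := by group
    have h2 : p'.out⁻¹ * p.out ∈ L :=
      hTI _ (hT c b hc1 hb1) _ (by rw [h1]; exact hT c' b' hc1' hb1')
    have hp : p = p' := by
      have : (p'.out : G ⧸ L) = (p.out : G ⧸ L) := QuotientGroup.eq.mpr h2
      rw [QuotientGroup.out_eq', QuotientGroup.out_eq'] at this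
      exact this.symm
    subst hp
    have h3 : (c : G) * b = (c' : G) * b' := mul_left_cancel (mul_right_cancel heq')
    have h4 : (c' : G)⁻¹ * c = (b' : G) * (b : G)⁻¹ := by
      calc (c' : G)⁻¹ * c = (c' : G)⁻¹ * ((c : G) * b) * (b : G)⁻¹ := by group
        _ = (c' : G)⁻¹ * ((c' : G) * b') * (b : G)⁻¹ := by rw [h3]
        _ = (b' : G) * (b : G)⁻¹ := by group
    have h5 : (c' : G)⁻¹ * c ∈ C ⊓ B :=
      ⟨C.mul_mem (C.inv_mem c'.2) c.2, by rw [h4]; exact B.mul_mem b'.2 (B.inv_mem b.2)⟩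
    rw [hinf, Subgroup.mem_bot] at h5
    have hcc : (c : G) = c' := by rw [inv_mul_eq_one] at h5; exact h5.symm
    have hbb : (b : G) = b' := by rw [hcc] at h3; exact mul_left_cancel h3
    have hc2 : c = c' := Subtype.ext hcc
    have hb2 : b = b' := Subtype.ext hbb
    rw [hc2, hb2]
  have hsub : f '' D ⊆ ConjS (TS C B q) := by
    rintro _ ⟨⟨p, c, b⟩, ⟨-, hc, hb⟩, rfl⟩
    exact ⟨_, hT c b hc hb, p.out, rfl⟩
  have h3 : L.index * ((Nat.card C - 1) * Bs.ncard) ≤ Set.ncard (ConjS (TS C B q)) := by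
    calc L.index * ((Nat.card C - 1) * Bs.ncard) = D.ncard := hD.symm
      _ = (f '' D).ncard := (Set.InjOn.ncard_image hinj).symm
      _ ≤ _ := Set.ncard_le_ncard hsub (Set.toFinite _)
  -- the `q`-singular elements of `B`
  have h2 : (q - 1) * Nat.card B ≤ q * Bs.ncard := by
    have hr := Cfsg.Agent.Lib.Helper22.XPure.card_regular_le B z q hq hzB hzo hzc
    have hcompl : Bs.ncard + (Bsᶜ).ncard = Nat.card B := Set.ncard_add_ncard_compl Bs
    have hBr : (Bsᶜ : Set B) = {b : B | ¬ q ∣ orderOf (b : G)} := rfl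
    rw [hBr] at hcompl
    have hq1 : 1 ≤ q := hq.one_lt.le
    have e1 : q * Bs.ncard + q * Set.ncard {b : B | ¬ q ∣ orderOf (b : G)}
        = (q - 1) * Nat.card B + Nat.card B := by
      rw [← mul_add, hcompl]
      have : q = (q - 1) + 1 := by omega
      nth_rewrite 1 [this]
      ring
    omega
  -- `|G| ≤ |G : L| |C| |B|`
  have hLle : Nat.card L ≤ Nat.card C * Nat.card B := by
    have hle : B ≤ Subgroup.normalizer (C : Set G) := by
      intro b hb
      rw [Subgroup.mem_normalizer_iff]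
      intro c
      have key : ∀ c : G, c ∈ C → b * c * b⁻¹ ∈ C := by
        intro c hc
        have : b * c * b⁻¹ = c := by rw [← hCB c hc b hb]; group
        rw [this]; exact hc
      constructor
      · exact key c
      · intro h
        have h' : b⁻¹ * (b * c * b⁻¹) * (b⁻¹)⁻¹ ∈ C := by
          have hc' := h
          have e : b⁻¹ * (b * c * b⁻¹) * (b⁻¹)⁻¹ = b * c * b⁻¹ := by
            have hcomm := hCB (b * c * b⁻¹) h b hb
            calc b⁻¹ * (b * c * b⁻¹) * (b⁻¹)⁻¹ = b⁻¹ * ((b * c * b⁻¹) * b) := by group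
              _ = b⁻¹ * (b * (b * c * b⁻¹)) := by rw [hcomm]
              _ = b * c * b⁻¹ := by group
          rw [e]; exact hc'
        have e2 : b⁻¹ * (b * c * b⁻¹) * (b⁻¹)⁻¹ = c := by group
        rwa [e2] at h'
    have hcoe := Subgroup.coe_mul_of_right_le_normalizer_left C B hle
    let g : C × B → L := fun p =>
      ⟨(p.1 : G) * (p.2 : G), Subgroup.mul_mem _ (Subgroup.mem_sup_left p.1.2)
        (Subgroup.mem_sup_right p.2.2)⟩
    have hsurj : Function.Surjective g := by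
      rintro ⟨x, hx⟩
      have hx' : x ∈ ((C ⊔ B : Subgroup G) : Set G) := hx
      rw [hcoe] at hx'
      obtain ⟨c, hc, b, hb, rfl⟩ := Set.mem_mul.mp hx'
      exact ⟨(⟨c, hc⟩, ⟨b, hb⟩), rfl⟩
    have := Nat.card_le_card_of_surjective g hsurj
    rwa [Nat.card_prod] at this
  have h1 : Nat.card G ≤ L.index * (Nat.card C * Nat.card B) := by
    rw [← Subgroup.index_mul_card L]
    exact Nat.mul_le_mul_left _ hLle
  obtain ⟨t, ht⟩ : ∃ t : ℕ, t = Set.ncard (ConjS (TS C B q)) := ⟨_, rfl⟩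
  rw [← ht] at h3 ⊢
  obtain ⟨nC, hnC⟩ : ∃ n : ℕ, n = Nat.card C := ⟨_, rfl⟩
  obtain ⟨nB, hnB⟩ : ∃ n : ℕ, n = Nat.card B := ⟨_, rfl⟩
  obtain ⟨N, hN⟩ : ∃ n : ℕ, n = Nat.card G := ⟨_, rfl⟩
  obtain ⟨s, hs⟩ : ∃ n : ℕ, n = Bs.ncard := ⟨_, rfl⟩
  obtain ⟨i, hi⟩ : ∃ n : ℕ, n = L.index := ⟨_, rfl⟩
  rw [← hnC, ← hnB, ← hN, ← hi] at h1
  rw [← hnC, ← hs, ← hi] at h3
  rw [← hnB, ← hs] at h2
  rw [← hnC, ← hN]
  calc (nC - 1) * (q - 1) * N ≤ (nC - 1) * (q - 1) * (i * (nC * nB)) := by gcongr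
    _ = (i * ((nC - 1) * ((q - 1) * nB))) * nC := by ring
    _ ≤ (i * ((nC - 1) * (q * s))) * nC := by gcongr
    _ = nC * q * (i * ((nC - 1) * s)) := by ring
    _ ≤ nC * q * t := by gcongr

end Cfsg.Agent.Lib.Helper22.S51XPURE
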