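import Mathlib
import Cfsg.Agent.Lib.Helper62.S55Stmt
import Cfsg.Agent.Lib.Helper57.BG14FHCore

/-! helper22: S1355 call (helper62), piece FLE: `M_F ≤ M_σ`. -/

set_option autoImplicit false

namespace Cfsg.Agent.Lib.Helper22.S55FLE

universe u

theorem main : Cfsg.Agent.Lib.Helper62.S55Stmt.FLe.{u} := by
  intro G _ _ hG M hM
  unfold Cfsg.fittingHallOf Cfsg.sigmaCore
  apply Subgroup.map_mono
  unfold Cfsg.fittingHall Cfsg.piCore
  apply sSup_le
  rintro N ⟨hNn, hNnil, hNcop⟩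
  exact le_sSup ⟨hNn, fun p hp hpN =>
    Cfsg.Agent.Lib.Helper57.BG14FHCore.mem_sigma_of_normal_hall hG.2.1 M hM N hNn hNnil hNcop
      p hp hpN⟩

end Cfsg.Agent.Lib.Helper22.S55FLE
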