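import Mathlib
import Cfsg.Agent.Lib.Helper31.CoprimeGen

/-!
# The solvable signalizer functor theorem when the closure is a solvable `p'`-group

`main`: let `A` be an elementary abelian `p`-group, `E ≤ A` a subgroup with `p^3 * |E| ≤ |A|`,
`ι : A →* G` a homomorphism into a finite group, and `ψ a` (`a ∉ E`) subgroups of `C_G(ι a)`,
invariant under conjugation by `ι A` and balanced (`ψ a ⊓ C(ι b) ≤ ψ b`).  If the closure
`W = ⨆ a ∉ E, ψ a` is a solvable group of order prime to `p`, then `W ⊓ C(ι a) = ψ a`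
for every `a ∉ E` (only `≤` is stated; `≥` is trivial).
-/

set_option autoImplicit false

namespace Cfsg.Agent.Lib.Helper22.SolvSig

open Cfsg.Agent.Lib.Helper31.CoprimeGen
open scoped Pointwise commutatorElement

universe u v

section basic

variable {G : Type u} [Group G] {A : Type v} [Group A]

/-- `X` is invariant under conjugation by the image of `ι`. -/
def AI (ι : A →* G) (X : Subgroup G) : Prop :=
  ∀ b : A, ∀ x ∈ X, ι b * x * (ι b)⁻¹ ∈ X

theorem AI.mem_normalizer {ι : A →* G} {X : Subgroup G} (h : AI ι X) (b : A) :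
    ι b ∈ Subgroup.normalizer (X : Set G) := by
  rw [Subgroup.mem_normalizer_iff]
  intro x
  refine ⟨h b x, fun hx => ?_⟩
  have h2 := h b⁻¹ _ hx
  simpa [mul_assoc] using h2

theorem AI.range_le {ι : A →* G} {X : Subgroup G} (h : AI ι X) :
    ι.range ≤ Subgroup.normalizer (X : Set G) := by
  rintro _ ⟨b, rfl⟩
  exact h.mem_normalizer b

theorem AI.of_range_le {ι : A →* G} {X : Subgroup G}
    (h : ι.range ≤ Subgroup.normalizer (X : Set G)) : AI ι X := fun b x hx =>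
  (Subgroup.mem_normalizer_iff.mp (h ⟨b, rfl⟩) x).mp hx

theorem AI.inf {ι : A →* G} {X Y : Subgroup G} (hX : AI ι X) (hY : AI ι Y) : AI ι (X ⊓ Y) :=
  fun b x hx => ⟨hX b x hx.1, hY b x hx.2⟩

theorem AI.sup {ι : A →* G} {X Y : Subgroup G} (hX : AI ι X) (hY : AI ι Y) : AI ι (X ⊔ Y) :=
  AI.of_range_le ((le_inf hX.range_le hY.range_le).trans
    (Subgroup.normalizer_inf_normalizer_le_normalizer_sup X Y))

theorem AI.iSup {ι : A →* G} {κ : Sort*} {X : κ → Subgroup G} (hX : ∀ i, AI ι (X i)) :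
    AI ι (⨆ i, X i) :=
  AI.of_range_le ((le_iInf fun i => (hX i).range_le).trans
    (Subgroup.iInf_normalizer_le_normalizer_iSup X))

theorem normalizer_le_normalizer_commutator (X : Subgroup G) :
    Subgroup.normalizer (X : Set G) ≤ Subgroup.normalizer ((⁅X, X⁆ : Subgroup G) : Set G) := by
  intro g hg
  rw [Subgroup.mem_normalizer_iff_map_conj_eq] at hg ⊢
  rw [Subgroup.map_commutator, hg]

theorem AI.commutator {ι : A →* G} {X : Subgroup G} (hX : AI ι X) : AI ι ⁅X, X⁆ :=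
  AI.of_range_le (hX.range_le.trans (normalizer_le_normalizer_commutator X))

/-- The closure of the functor `ψ` outside `E`. -/
def clos (E : Subgroup A) (ψ : A → Subgroup G) : Subgroup G :=
  ⨆ a : {a : A // a ∉ E}, ψ a

theorem le_clos (E : Subgroup A) (ψ : A → Subgroup G) {a : A} (ha : a ∉ E) : ψ a ≤ clos E ψ :=
  le_iSup (fun a : {a : A // a ∉ E} => ψ a) ⟨a, ha⟩

/-- The functor conditions. -/
structure Fun (E : Subgroup A) (ι : A →* G) (ψ : A → Subgroup G) : Prop where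
  cent : ∀ a, a ∉ E → ψ a ≤ Subgroup.centralizer {ι a}
  inv : ∀ a, a ∉ E → AI ι (ψ a)
  bal : ∀ a, a ∉ E → ∀ b, b ∉ E → ψ a ⊓ Subgroup.centralizer {ι b} ≤ ψ b

theorem Fun.clos_AI {E : Subgroup A} {ι : A →* G} {ψ : A → Subgroup G} (hF : Fun E ι ψ) :
    AI ι (clos E ψ) :=
  AI.iSup fun a => hF.inv a.1 a.2

end basic

section coprime

variable {G : Type u} [Group G] [Finite G] {A : Type v} [CommGroup A] {p : ℕ} [Fact p.Prime]

theorem gen (hAp : ∀ a : A, a ^ p = 1) (ι : A →* G) (X : Subgroup G)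
    (hX : ¬ p ∣ Nat.card X) (hXI : AI ι X) (c₁ c₂ : A) :
    X ≤ (X ⊓ Subgroup.centralizer {ι c₂}) ⊔
      ⨆ j ∈ Finset.range p, X ⊓ Subgroup.centralizer {ι (c₁ * c₂ ^ j)} := by
  have hE : IsPGroup p ι.range := by
    rintro ⟨_, b, rfl⟩
    refine ⟨1, Subtype.ext ?_⟩
    simp [← map_pow, hAp b]
  have h := rank_two_generation (p := p) ι.range X hE hX hXI.range_le (ι c₁) (ι c₂)
    ⟨c₁, rfl⟩ ⟨c₂, rfl⟩ (by rw [← map_mul, ← map_mul, mul_comm])
    (by rw [← map_pow, hAp, map_one]) (by rw [← map_pow, hAp, map_one])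
  simpa only [← map_pow, ← map_mul] using h

theorem fix_coset (g : G) (hg : g ^ p = 1) (N : Subgroup G)
    (hN : ¬ p ∣ Nat.card N) (hgN : ∀ n ∈ N, g * n * g⁻¹ ∈ N) (x : G)
    (hx : x⁻¹ * (g * x * g⁻¹) ∈ N) :
    ∃ n ∈ N, g * (x * n) * g⁻¹ = x * n := by
  have h := exists_fixed_in_coset (p := p) (MulAut.conj g)
    (by rw [← map_pow, hg, map_one]) N hN (by simpa using hgN) x (by simpa using hx)
  simpa using h

theorem exists_c2 [Finite A] (hAp : ∀ a : A, a ^ p = 1)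
    (E : Subgroup A) (hE : p ^ 3 * Nat.card E ≤ Nat.card A) (b : A) :
    ∃ c₂ : A, ∀ i : ℕ, c₂ * b ^ i ∉ E := by
  have hp : p.Prime := Fact.out
  by_contra h
  push Not at h
  let f : ↥E × Fin p → A := fun x => (x.1 : A) * (b ^ (x.2 : ℕ))⁻¹
  have hf : Function.Surjective f := by
    intro y
    obtain ⟨i, hi⟩ := h y
    have hi' : y * b ^ (i % p) ∈ E := by rwa [← pow_eq_pow_mod i (hAp b)]
    refine ⟨(⟨y * b ^ (i % p), hi'⟩, ⟨i % p, Nat.mod_lt _ hp.pos⟩), ?_⟩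
    simp [f]
  have h1 := Nat.card_le_card_of_surjective f hf
  rw [Nat.card_prod, Nat.card_fin] at h1
  have hc : 0 < Nat.card E := Nat.card_pos
  have h2 : p < p ^ 3 := by
    calc p = p ^ 1 := (pow_one p).symm
      _ < p ^ 3 := Nat.pow_lt_pow_right hp.one_lt (by norm_num)
  nlinarith

theorem exists_c1 [Finite A] (hAp : ∀ a : A, a ^ p = 1)
    (E : Subgroup A) (hE : p ^ 3 * Nat.card E ≤ Nat.card A) (b c₂ : A) :
    ∃ c₁ : A, ∀ j i : ℕ, c₁ * c₂ ^ j * b ^ i ∉ E := by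
  have hp : p.Prime := Fact.out
  by_contra h
  push Not at h
  let f : ↥E × Fin p × Fin p → A :=
    fun x => (x.1 : A) * (b ^ (x.2.2 : ℕ))⁻¹ * (c₂ ^ (x.2.1 : ℕ))⁻¹
  have hf : Function.Surjective f := by
    intro y
    obtain ⟨j, i, hi⟩ := h y
    have hi' : y * c₂ ^ (j % p) * b ^ (i % p) ∈ E := by
      rwa [← pow_eq_pow_mod i (hAp b), ← pow_eq_pow_mod j (hAp c₂)]
    refine ⟨(⟨y * c₂ ^ (j % p) * b ^ (i % p), hi'⟩, ⟨j % p, Nat.mod_lt _ hp.pos⟩,
      ⟨i % p, Nat.mod_lt _ hp.pos⟩), ?_⟩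
    simp [f]
  have h1 := Nat.card_le_card_of_surjective f hf
  rw [Nat.card_prod, Nat.card_prod, Nat.card_fin] at h1
  have hc : 0 < Nat.card E := Nat.card_pos
  have h2 : p * p < p ^ 3 := by
    calc p * p = p ^ 2 := (sq p).symm
      _ < p ^ 3 := Nat.pow_lt_pow_right hp.one_lt (by norm_num)
  nlinarith

end coprime

section ordprod

variable {G : Type u} [Group G]

theorem pow_apply_mem (φ : MulAut G) (S : Subgroup G) (hS : ∀ s ∈ S, φ s ∈ S) (y : G)
    (hy : y ∈ S) (k : ℕ) : (φ ^ k) y ∈ S := by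
  induction k with
  | zero => simpa using hy
  | succ k ih => rw [pow_succ', MulAut.mul_apply]; exact hS _ ih

theorem ordProd_mem (φ : MulAut G) (S : Subgroup G) (hS : ∀ s ∈ S, φ s ∈ S) (y : G)
    (hy : y ∈ S) (k : ℕ) : ordProd φ y k ∈ S := by
  induction k with
  | zero => exact S.one_mem
  | succ k ih => rw [ordProd_succ]; exact S.mul_mem ih (pow_apply_mem φ S hS y hy k)

theorem ordProd_one (φ : MulAut G) (k : ℕ) : ordProd φ 1 k = 1 := by
  induction k with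
  | zero => rfl
  | succ k ih => rw [ordProd_succ, ih, map_one, mul_one]

theorem ordProd_fix (φ : MulAut G) (x : G) (hx : φ x = x) (k : ℕ) : ordProd φ x k = x ^ k := by
  have h : ∀ i : ℕ, (φ ^ i) x = x := by
    intro i
    induction i with
    | zero => simp
    | succ i ih => rw [pow_succ', MulAut.mul_apply, ih, hx]
  induction k with
  | zero => simp [ordProd]
  | succ k ih => rw [ordProd_succ, ih, h, pow_succ]

theorem ordProd_mul (φ : MulAut G) (N : Subgroup G) (hNab : ∀ x ∈ N, ∀ y ∈ N, x * y = y * x)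
    (hN : ∀ s ∈ N, φ s ∈ N) (y₁ y₂ : G) (h₁ : y₁ ∈ N) (h₂ : y₂ ∈ N) (k : ℕ) :
    ordProd φ (y₁ * y₂) k = ordProd φ y₁ k * ordProd φ y₂ k := by
  induction k with
  | zero => simp [ordProd]
  | succ k ih =>
    rw [ordProd_succ, ordProd_succ, ordProd_succ, ih, map_mul]
    have hc := hNab _ (ordProd_mem φ N hN y₂ h₂ k) _ (pow_apply_mem φ N hN y₁ h₁ k)
    calc ordProd φ y₁ k * ordProd φ y₂ k * ((φ ^ k) y₁ * (φ ^ k) y₂)
        = ordProd φ y₁ k * (ordProd φ y₂ k * (φ ^ k) y₁) * (φ ^ k) y₂ := by group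
      _ = ordProd φ y₁ k * ((φ ^ k) y₁ * ordProd φ y₂ k) * (φ ^ k) y₂ := by rw [hc]
      _ = ordProd φ y₁ k * (φ ^ k) y₁ * (ordProd φ y₂ k * (φ ^ k) y₂) := by group

theorem map_ordProd_abelian (φ : MulAut G) (p : ℕ) (hφ : φ ^ p = 1) (N : Subgroup G)
    (hNab : ∀ x ∈ N, ∀ y ∈ N, x * y = y * x) (hN : ∀ s ∈ N, φ s ∈ N) (y : G) (hy : y ∈ N) :
    φ (ordProd φ y p) = ordProd φ y p := by
  rw [map_ordProd, ordProd_succ, hφ, MulAut.one_apply,
    hNab _ (ordProd_mem φ N hN y hy p) _ hy]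
  group

end ordprod

section fix

variable {G : Type u} [Group G] [Finite G] {A : Type v} [CommGroup A] {p : ℕ} [Fact p.Prime]

theorem abelian_fix (hAp : ∀ a : A, a ^ p = 1) (E : Subgroup A) (ι : A →* G) (ψ : A → Subgroup G)
    (hF : Fun E ι ψ) (N : Subgroup G) (hNab : ∀ x ∈ N, ∀ y ∈ N, x * y = y * x) (hNI : AI ι N)
    (hNp : ¬ p ∣ Nat.card N) (e : A) (he : e ∉ E) :
    (⨆ a : {a : A // a ∉ E}, N ⊓ ψ a) ⊓ Subgroup.centralizer {ι e} ≤ ψ e := by
  have hp : p.Prime := Fact.out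
  rintro x ⟨hx0, hxe⟩
  set φ : MulAut G := MulAut.conj (ι e) with hφdef
  have hφp : φ ^ p = 1 := by rw [hφdef, ← map_pow, ← map_pow, hAp, map_one, map_one]
  have hφN : ∀ s ∈ N, φ s ∈ N := fun s hs => by
    rw [hφdef, MulAut.conj_apply]; exact hNI e s hs
  have hA : ∀ y ∈ (⨆ a : {a : A // a ∉ E}, N ⊓ ψ a), y ∈ N ∧ ordProd φ y p ∈ ψ e := by
    intro y hy
    refine Subgroup.iSup_induction (fun a : {a : A // a ∉ E} => N ⊓ ψ a)
      (C := fun y => y ∈ N ∧ ordProd φ y p ∈ ψ e) hy ?_ ?_ ?_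
    · rintro ⟨a, ha⟩ y ⟨hyN, hya⟩
      refine ⟨hyN, ?_⟩
      have hφa : ∀ s ∈ ψ a, φ s ∈ ψ a := fun s hs => by
        rw [hφdef, MulAut.conj_apply]; exact hF.inv a ha e s hs
      have h1 : ordProd φ y p ∈ ψ a := ordProd_mem φ (ψ a) hφa y hya p
      have h2 : φ (ordProd φ y p) = ordProd φ y p :=
        map_ordProd_abelian φ p hφp N hNab hφN y hyN
      refine hF.bal a ha e he ⟨h1, Subgroup.mem_centralizer_singleton_iff.mpr ?_⟩
      rw [hφdef, MulAut.conj_apply] at h2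
      calc ordProd φ y p * ι e = (ι e * ordProd φ y p * (ι e)⁻¹) * ι e := by rw [h2]
        _ = ι e * ordProd φ y p := by group
    · exact ⟨N.one_mem, by rw [ordProd_one]; exact (ψ e).one_mem⟩
    · rintro y₁ y₂ ⟨h1N, h1⟩ ⟨h2N, h2⟩
      refine ⟨N.mul_mem h1N h2N, ?_⟩
      rw [ordProd_mul φ N hNab hφN y₁ y₂ h1N h2N]
      exact (ψ e).mul_mem h1 h2
  obtain ⟨hxN, hxT⟩ := hA x hx0
  have hφx : φ x = x := by
    rw [hφdef, MulAut.conj_apply]
    have hxe' : x * ι e = ι e * x :=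
      Subgroup.mem_centralizer_singleton_iff.mp (show x ∈ Subgroup.centralizer {ι e} from hxe)
    rw [← hxe']; group
  rw [ordProd_fix φ x hφx] at hxT
  have hcop : (Nat.card N).Coprime p := ((Nat.Prime.coprime_iff_not_dvd hp).mpr hNp).symm
  have h3 := mem_of_pow_mem hcop ((ψ e).subgroupOf N) ⟨x, hxN⟩
    (by rw [Subgroup.mem_subgroupOf]; simpa using hxT)
  exact Subgroup.mem_subgroupOf.mp h3

theorem normalizes [Finite A] (hAp : ∀ a : A, a ^ p = 1) (E : Subgroup A)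
    (hE : p ^ 3 * Nat.card E ≤ Nat.card A) (ι : A →* G) (ψ : A → Subgroup G)
    (hF : Fun E ι ψ) (hWp : ¬ p ∣ Nat.card (clos E ψ))
    (D K : Subgroup G) (hDI : AI ι D) (hDp : ¬ p ∣ Nat.card D)
    (hK : clos E ψ ≤ Subgroup.normalizer (K : Set G))
    (hDK : ∀ e, e ∉ E → D ⊓ Subgroup.centralizer {ι e} = ψ e ⊓ K) :
    clos E ψ ≤ Subgroup.normalizer (D : Set G) := by
  refine iSup_le ?_
  rintro ⟨b, hb⟩
  show ψ b ≤ _
  obtain ⟨c₂, hc₂⟩ := exists_c2 hAp E hE b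
  obtain ⟨c₁, hc₁⟩ := exists_c1 hAp E hE b c₂
  have hψbp : ¬ p ∣ Nat.card (ψ b) := fun h =>
    hWp (h.trans (Subgroup.card_dvd_of_le (le_clos E ψ hb)))
  have key : ∀ c : A, (∀ i : ℕ, c * b ^ i ∉ E) →
      ∀ y ∈ ψ b ⊓ Subgroup.centralizer {ι c}, ∀ d ∈ D, y * d * y⁻¹ ∈ D := by
    intro c hc y hy d hd
    have hyb : y * ι b = ι b * y :=
      Subgroup.mem_centralizer_singleton_iff.mp (hF.cent b hb hy.1)
    have hyc : y * ι c = ι c * y := Subgroup.mem_centralizer_singleton_iff.mp hy.2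
    have hyW : y ∈ clos E ψ := le_clos E ψ hb hy.1
    have hterm : ∀ e', e' ∉ E → y ∈ ψ e' →
        D ⊓ Subgroup.centralizer {ι e'} ≤ D.comap (MulAut.conj y).toMonoidHom := by
      intro e' he' hye' d' hd'
      rw [hDK e' he'] at hd'
      rw [Subgroup.mem_comap]
      show y * d' * y⁻¹ ∈ D
      have h1 : y * d' * y⁻¹ ∈ ψ e' ⊓ K :=
        ⟨(ψ e').mul_mem ((ψ e').mul_mem hye' hd'.1) ((ψ e').inv_mem hye'),
          (Subgroup.mem_normalizer_iff.mp (hK hyW) d').mp hd'.2⟩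
      rw [← hDK e' he'] at h1
      exact h1.1
    have hgen := gen hAp ι D hDp hDI c b
    have hle : D ≤ D.comap (MulAut.conj y).toMonoidHom := by
      refine hgen.trans (sup_le (hterm b hb hy.1) (iSup₂_le fun j _ => ?_))
      have hcj : c * b ^ j ∉ E := hc j
      refine hterm _ hcj (hF.bal b hb _ hcj ⟨hy.1, Subgroup.mem_centralizer_singleton_iff.mpr ?_⟩)
      rw [map_mul, map_pow]
      have h1 : Commute y (ι c) := hyc
      have h2 : Commute y (ι b) := hyb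
      exact (h1.mul_right (h2.pow_right j)).eq
    exact hle hd
  have key2 : ∀ c : A, (∀ i : ℕ, c * b ^ i ∉ E) →
      ψ b ⊓ Subgroup.centralizer {ι c} ≤ Subgroup.normalizer (D : Set G) := by
    intro c hc y hy
    rw [Subgroup.mem_normalizer_iff]
    intro d
    refine ⟨key c hc y hy d, fun h => ?_⟩
    have h2 := key c hc y⁻¹ (Subgroup.inv_mem _ hy) _ h
    simpa [mul_assoc] using h2
  refine (gen hAp ι (ψ b) hψbp (hF.inv b hb) c₁ c₂).trans (sup_le ?_ (iSup₂_le fun j _ => ?_))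
  · exact key2 c₂ hc₂
  · exact key2 (c₁ * c₂ ^ j) (hc₁ j)

end fix

section minimal

variable {G : Type u} [Group G] {A : Type v} [Group A]

theorem sup_commutator_ne (W N : Subgroup G) [Group.IsSolvable W] (hNW : N ≤ W) (hne : N ≠ W)
    (hn : W ≤ Subgroup.normalizer (N : Set G)) : N ⊔ ⁅W, W⁆ ≠ W := by
  intro h
  have hnorm : (N.subgroupOf W).Normal :=
    (Subgroup.normal_subgroupOf_iff_le_normalizer hNW).mpr hn
  have hne' : N.subgroupOf W ≠ ⊤ := by
    intro h'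
    rw [Subgroup.subgroupOf_eq_top] at h'
    exact hne (le_antisymm hNW h')
  have hnt : Nontrivial (↥W ⧸ N.subgroupOf W) := QuotientGroup.nontrivial_iff.mpr hne'
  have hlt := Group.IsSolvable.commutator_lt_top_of_nontrivial (↥W ⧸ N.subgroupOf W)
  have hmap : (commutator ↥W).map (QuotientGroup.mk' (N.subgroupOf W)) =
      commutator (↥W ⧸ N.subgroupOf W) := by
    rw [commutator_def, commutator_def, Subgroup.map_commutator,
      Subgroup.map_top_of_surjective _ (QuotientGroup.mk'_surjective _)]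
  have hsup : N.subgroupOf W ⊔ commutator ↥W = ⊤ := by
    apply Subgroup.map_injective W.subtype_injective
    rw [Subgroup.map_sup, Subgroup.map_subtype_commutator, Subgroup.map_subgroupOf_eq_of_le hNW,
      ← MonoidHom.range_eq_map, Subgroup.range_subtype]
    exact h
  apply hlt.ne
  rw [← hmap]
  have h3 := congrArg (Subgroup.map (QuotientGroup.mk' (N.subgroupOf W))) hsup
  rw [Subgroup.map_sup, Subgroup.map_top_of_surjective _ (QuotientGroup.mk'_surjective _)] at h3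
  rw [← h3]
  simp

theorem normalizer_of_commutator_le (W Y : Subgroup G) (hYW : Y ≤ W) (h : ⁅W, W⁆ ≤ Y) :
    W ≤ Subgroup.normalizer (Y : Set G) := by
  intro w hw
  rw [Subgroup.mem_normalizer_iff]
  intro y
  constructor
  · intro hy
    have h1 : ⁅w, y⁆ ∈ Y := h (Subgroup.commutator_mem_commutator hw (hYW hy))
    have h2 : w * y * w⁻¹ = ⁅w, y⁆ * y := by rw [commutatorElement_def]; group
    rw [h2]; exact Y.mul_mem h1 hy
  · intro hy
    have h1 : ⁅w⁻¹, w * y * w⁻¹⁆ ∈ Y :=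
      h (Subgroup.commutator_mem_commutator (W.inv_mem hw) (hYW hy))
    have h2 : y = ⁅w⁻¹, w * y * w⁻¹⁆ * (w * y * w⁻¹) := by rw [commutatorElement_def]; group
    rw [h2]; exact Y.mul_mem h1 hy

theorem min_exists [Finite G] (ι : A →* G) (W W₀ : Subgroup G) (h0 : W₀ ≠ ⊥)
    (hn : W ≤ Subgroup.normalizer (W₀ : Set G)) (hI : AI ι W₀) :
    ∃ N : Subgroup G, N ≠ ⊥ ∧ N ≤ W₀ ∧ W ≤ Subgroup.normalizer (N : Set G) ∧ AI ι N ∧
      ∀ N' : Subgroup G, N' ≠ ⊥ → N' ≤ N → W ≤ Subgroup.normalizer (N' : Set G) →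
        AI ι N' → N' = N := by
  obtain ⟨N, hN, hmin⟩ := exists_minimal_of_wellFoundedLT
    (fun N : Subgroup G => N ≠ ⊥ ∧ N ≤ W₀ ∧ W ≤ Subgroup.normalizer (N : Set G) ∧ AI ι N)
    ⟨W₀, h0, le_rfl, hn, hI⟩
  refine ⟨N, hN.1, hN.2.1, hN.2.2.1, hN.2.2.2, fun N' h1 h2 h3 h4 => ?_⟩
  exact le_antisymm h2 (hmin ⟨h1, h2.trans hN.2.1, h3, h4⟩ h2)

theorem abelian_of_min (ι : A →* G) (W N : Subgroup G) [Group.IsSolvable W] (hNW : N ≤ W)
    (hN0 : N ≠ ⊥) (hn : W ≤ Subgroup.normalizer (N : Set G)) (hI : AI ι N)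
    (hmin : ∀ N' : Subgroup G, N' ≠ ⊥ → N' ≤ N → W ≤ Subgroup.normalizer (N' : Set G) →
        AI ι N' → N' = N) :
    ∀ x ∈ N, ∀ y ∈ N, x * y = y * x := by
  have : Group.IsSolvable ↥N := Group.isSolvable_of_isSolvable_injective (Subgroup.inclusion_injective hNW)
  have : Nontrivial ↥N := (Subgroup.nontrivial_iff_ne_bot N).mpr hN0
  have hlt := Group.IsSolvable.commutator_lt_top_of_nontrivial ↥N
  have hne : ⁅N, N⁆ ≠ N := by
    intro h
    apply hlt.ne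
    apply Subgroup.map_injective N.subtype_injective
    rw [Subgroup.map_subtype_commutator, h, ← MonoidHom.range_eq_map, Subgroup.range_subtype]
  have hbot : ⁅N, N⁆ = ⊥ := by
    by_contra hb
    exact hne (hmin ⁅N, N⁆ hb (Subgroup.commutator_le_self N)
      (hn.trans (normalizer_le_normalizer_commutator N)) hI.commutator)
  intro x hx y hy
  have h1 : ⁅x, y⁆ ∈ ⁅N, N⁆ := Subgroup.commutator_mem_commutator hx hy
  rw [hbot, Subgroup.mem_bot] at h1
  exact commutatorElement_eq_one_iff_mul_comm.mp h1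

end minimal

/-- The induction hypothesis: the theorem holds for all closures of order less than `n`. -/
def IH {A : Type v} [CommGroup A] (p : ℕ) (E : Subgroup A) (n : ℕ) : Prop :=
  ∀ (G' : Type u) [Group G'] [Finite G'] (ι' : A →* G') (ψ' : A → Subgroup G'),
    Fun E ι' ψ' → Group.IsSolvable (clos E ψ') → ¬ p ∣ Nat.card (clos E ψ') →
    Nat.card (clos E ψ') < n → ∀ a, a ∉ E → clos E ψ' ⊓ Subgroup.centralizer {ι' a} ≤ ψ' a

section induct

variable {G : Type u} [Group G] [Finite G] {A : Type v} [CommGroup A] {p : ℕ} [Fact p.Prime]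

theorem quot_step (hAp : ∀ a : A, a ^ p = 1) (E : Subgroup A) (ι : A →* G)
    (ψ : A → Subgroup G) (hF : Fun E ι ψ) [hS : Group.IsSolvable (clos E ψ)]
    (hWp : ¬ p ∣ Nat.card (clos E ψ)) (ih : IH.{u, v} p E (Nat.card (clos E ψ)))
    (N : Subgroup G) (hN0 : N ≠ ⊥) (hNW : N ≤ clos E ψ)
    (hn : clos E ψ ≤ Subgroup.normalizer (N : Set G)) (hNI : AI ι N) (a : A) (ha : a ∉ E)
    (x : G) (hx : x ∈ clos E ψ ⊓ Subgroup.centralizer {ι a}) :
    ∃ y ∈ ψ a, ∃ n ∈ N, x = y * n := by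
  classical
  let H : Subgroup G := Subgroup.normalizer (N : Set G)
  have hNH : N ≤ H := Subgroup.le_normalizer
  let N' : Subgroup ↥H := N.subgroupOf H
  have hN'n : N'.Normal := Subgroup.normal_in_normalizer
  let π : ↥H →* ↥H ⧸ N' := QuotientGroup.mk' N'
  let ιH : A →* ↥H := ι.codRestrict H (fun b => hNI.mem_normalizer b)
  let ι' : A →* ↥H ⧸ N' := π.comp ιH
  let ψ' : A → Subgroup (↥H ⧸ N') := fun b => ((ψ b).subgroupOf H).map π
  have hπ : ∀ h₁ h₂ : ↥H, π h₁ = π h₂ ↔ (h₁ : G)⁻¹ * (h₂ : G) ∈ N := by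
    intro h₁ h₂
    show (QuotientGroup.mk h₁ : ↥H ⧸ N') = QuotientGroup.mk h₂ ↔ _
    rw [QuotientGroup.eq, Subgroup.mem_subgroupOf]
    simp
  have hF' : Fun E ι' ψ' := by
    refine ⟨?_, ?_, ?_⟩
    · intro b hb x' hx'
      obtain ⟨h, hh, rfl⟩ := Subgroup.mem_map.mp hx'
      rw [Subgroup.mem_subgroupOf] at hh
      apply Subgroup.mem_centralizer_singleton_iff.mpr
      show π h * π (ιH b) = π (ιH b) * π h
      rw [← map_mul, ← map_mul]
      congr 1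
      apply Subtype.ext
      show (h : G) * ι b = ι b * (h : G)
      exact Subgroup.mem_centralizer_singleton_iff.mp (hF.cent b hb hh)
    · intro b hb c x' hx'
      obtain ⟨h, hh, rfl⟩ := Subgroup.mem_map.mp hx'
      rw [Subgroup.mem_subgroupOf] at hh
      refine Subgroup.mem_map.mpr ⟨ιH c * h * (ιH c)⁻¹, ?_, ?_⟩
      · rw [Subgroup.mem_subgroupOf]
        exact hF.inv b hb c _ hh
      · show π (ιH c * h * (ιH c)⁻¹) = π (ιH c) * π h * (π (ιH c))⁻¹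
        rw [map_mul, map_mul, map_inv]
    · intro b hb c hc x' hx'
      obtain ⟨hx1, hx2⟩ := hx'
      obtain ⟨h, hh, rfl⟩ := Subgroup.mem_map.mp hx1
      rw [Subgroup.mem_subgroupOf] at hh
      have hx2' : π h * π (ιH c) = π (ιH c) * π h :=
        Subgroup.mem_centralizer_singleton_iff.mp hx2
      have h1 : (h : G)⁻¹ * (ι c * (h : G) * (ι c)⁻¹) ∈ N := by
        have h2 : π h = π (ιH c * h * (ιH c)⁻¹) := by
          rw [map_mul, map_mul, map_inv, ← hx2']; group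
        exact (hπ _ _).mp h2
      have h3 : (h : G)⁻¹ * (ι c * (h : G) * (ι c)⁻¹) ∈ N ⊓ ψ b :=
        ⟨h1, (ψ b).mul_mem ((ψ b).inv_mem hh) (hF.inv b hb c _ hh)⟩
      have hNbp : ¬ p ∣ Nat.card ↥(N ⊓ ψ b) := fun hd =>
        hWp (hd.trans (Subgroup.card_dvd_of_le (inf_le_left.trans hNW)))
      obtain ⟨n, hn', hfix⟩ := fix_coset (p := p) (ι c) (by rw [← map_pow, hAp, map_one])
        (N ⊓ ψ b) hNbp (fun n hn => ⟨hNI c n hn.1, hF.inv b hb c n hn.2⟩) (h : G) h3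
      have h4 : (h : G) * n ∈ ψ c := by
        refine hF.bal b hb c hc ⟨(ψ b).mul_mem hh hn'.2,
          Subgroup.mem_centralizer_singleton_iff.mpr ?_⟩
        calc (h : G) * n * ι c = (ι c * ((h : G) * n) * (ι c)⁻¹) * ι c := by rw [hfix]
          _ = ι c * ((h : G) * n) := by group
      refine Subgroup.mem_map.mpr ⟨h * ⟨n, hNH hn'.1⟩, ?_, ?_⟩
      · rw [Subgroup.mem_subgroupOf]; exact h4
      · apply (hπ _ _).mpr
        show ((h : G) * n)⁻¹ * (h : G) ∈ N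
        have h5 : ((h : G) * n)⁻¹ * (h : G) = n⁻¹ := by group
        rw [h5]; exact N.inv_mem hn'.1
  have hWH : clos E ψ ≤ H := hn
  have hψH : ∀ b : {b : A // b ∉ E}, ψ b ≤ H := fun b => (le_clos E ψ b.2).trans hWH
  have hsub : (clos E ψ).subgroupOf H = ⨆ b : {b : A // b ∉ E}, (ψ b).subgroupOf H := by
    apply Subgroup.map_injective H.subtype_injective
    rw [Subgroup.map_iSup, Subgroup.map_subgroupOf_eq_of_le hWH]
    show (⨆ b : {b : A // b ∉ E}, ψ b) = _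
    exact iSup_congr fun b => (Subgroup.map_subgroupOf_eq_of_le (hψH b)).symm
  have hW' : clos E ψ' = ((clos E ψ).subgroupOf H).map π := by
    rw [hsub, Subgroup.map_iSup]; rfl
  let f : ↥((clos E ψ).subgroupOf H) →* ↥(((clos E ψ).subgroupOf H).map π) :=
    π.subgroupMap ((clos E ψ).subgroupOf H)
  have hf : Function.Surjective f := π.subgroupMap_surjective _
  have hSH : Group.IsSolvable ↥((clos E ψ).subgroupOf H) :=
    Group.isSolvable_of_isSolvable_injective (f := (Subgroup.subgroupOfEquivOfLe hWH).toMonoidHom)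
      (Subgroup.subgroupOfEquivOfLe hWH).injective
  have hS' : Group.IsSolvable ↥(clos E ψ') := by rw [hW']; exact Group.isSolvable_of_surjective hf
  have hcardeq : Nat.card ↥((clos E ψ).subgroupOf H) = Nat.card ↥(clos E ψ) :=
    Nat.card_congr (Subgroup.subgroupOfEquivOfLe hWH).toEquiv
  have hWp' : ¬ p ∣ Nat.card (clos E ψ') := by
    rw [hW']
    intro hd
    apply hWp
    rw [← hcardeq]
    exact hd.trans (Subgroup.card_map_dvd _ _)
  have hlt : Nat.card (clos E ψ') < Nat.card (clos E ψ) := by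
    rw [hW', ← hcardeq]
    obtain ⟨⟨n, hnN⟩, hn1⟩ := Subgroup.ne_bot_iff_exists_ne_one.mp hN0
    have hn1' : n ≠ 1 := fun h => hn1 (Subtype.ext h)
    have hninj : ¬ Function.Injective f := by
      intro hinj
      have hmem : (⟨n, hNH hnN⟩ : ↥H) ∈ (clos E ψ).subgroupOf H :=
        Subgroup.mem_subgroupOf.mpr (hNW hnN)
      have h1 : f ⟨⟨n, hNH hnN⟩, hmem⟩ = f 1 := by
        apply Subtype.ext
        show π ⟨n, hNH hnN⟩ = π 1
        apply (hπ _ _).mpr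
        show n⁻¹ * 1 ∈ N
        rw [mul_one]; exact N.inv_mem hnN
      have h2 := hinj h1
      exact hn1' (congrArg (fun z : ↥((clos E ψ).subgroupOf H) => ((z : ↥H) : G)) h2)
    let _ := Fintype.ofFinite ↥((clos E ψ).subgroupOf H)
    let _ := Fintype.ofFinite ↥(((clos E ψ).subgroupOf H).map π)
    rw [Nat.card_eq_fintype_card, Nat.card_eq_fintype_card]
    exact Fintype.card_lt_of_surjective_not_injective f hf hninj
  have key := ih (↥H ⧸ N') ι' ψ' hF' hS' hWp' hlt a ha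
  have hxH : x ∈ H := hWH hx.1
  have h1 : π ⟨x, hxH⟩ ∈ clos E ψ' := by
    rw [hW']; exact Subgroup.mem_map_of_mem _ (Subgroup.mem_subgroupOf.mpr hx.1)
  have h2 : π ⟨x, hxH⟩ ∈ Subgroup.centralizer {ι' a} := by
    apply Subgroup.mem_centralizer_singleton_iff.mpr
    show π ⟨x, hxH⟩ * π (ιH a) = π (ιH a) * π ⟨x, hxH⟩
    rw [← map_mul, ← map_mul]
    congr 1
    apply Subtype.ext
    exact Subgroup.mem_centralizer_singleton_iff.mp hx.2
  obtain ⟨h, hh, hhx⟩ := Subgroup.mem_map.mp (key ⟨h1, h2⟩)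
  rw [Subgroup.mem_subgroupOf] at hh
  exact ⟨h, hh, (h : G)⁻¹ * x, (hπ _ _).mp hhx, by group⟩

theorem case1 [Finite A] (hAp : ∀ a : A, a ^ p = 1) (E : Subgroup A)
    (hE : p ^ 3 * Nat.card E ≤ Nat.card A) (ι : A →* G)
    (ψ : A → Subgroup G) (hF : Fun E ι ψ) [hS : Group.IsSolvable (clos E ψ)]
    (hWp : ¬ p ∣ Nat.card (clos E ψ)) (ih : IH.{u, v} p E (Nat.card (clos E ψ)))
    (N : Subgroup G) (hN0 : N ≠ ⊥) (hNW : N ≤ clos E ψ)
    (hn : clos E ψ ≤ Subgroup.normalizer (N : Set G)) (hNI : AI ι N)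
    (hmin : ∀ N' : Subgroup G, N' ≠ ⊥ → N' ≤ N →
      clos E ψ ≤ Subgroup.normalizer (N' : Set G) → AI ι N' → N' = N)
    (a₀ : A) (ha₀ : a₀ ∉ E) (hNa₀ : N ⊓ ψ a₀ ≠ ⊥) (a : A) (ha : a ∉ E) :
    clos E ψ ⊓ Subgroup.centralizer {ι a} ≤ ψ a := by
  have hNab := abelian_of_min ι (clos E ψ) N hNW hN0 hn hNI hmin
  have hNp : ¬ p ∣ Nat.card N := fun hd => hWp (hd.trans (Subgroup.card_dvd_of_le hNW))
  have hN₀N : (⨆ b : {b : A // b ∉ E}, N ⊓ ψ b) ≤ N := iSup_le fun b => inf_le_left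
  have hN₀0 : (⨆ b : {b : A // b ∉ E}, N ⊓ ψ b) ≠ ⊥ := by
    intro h0
    apply hNa₀
    rw [eq_bot_iff, ← h0]
    exact le_iSup (fun b : {b : A // b ∉ E} => N ⊓ ψ b) ⟨a₀, ha₀⟩
  have hN₀I : AI ι (⨆ b : {b : A // b ∉ E}, N ⊓ ψ b) :=
    AI.iSup fun b => hNI.inf (hF.inv b.1 b.2)
  have hfix : ∀ e, e ∉ E →
      (⨆ b : {b : A // b ∉ E}, N ⊓ ψ b) ⊓ Subgroup.centralizer {ι e} ≤ ψ e :=
    fun e he => abelian_fix hAp E ι ψ hF N hNab hNI hNp e he
  have hDK : ∀ e, e ∉ E →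
      (⨆ b : {b : A // b ∉ E}, N ⊓ ψ b) ⊓ Subgroup.centralizer {ι e} = ψ e ⊓ N := by
    intro e he
    apply le_antisymm
    · exact le_inf (hfix e he) (inf_le_left.trans hN₀N)
    · refine le_inf ?_ (inf_le_left.trans (hF.cent e he))
      rw [inf_comm]
      exact le_iSup (fun b : {b : A // b ∉ E} => N ⊓ ψ b) ⟨e, he⟩
  have hN₀p : ¬ p ∣ Nat.card ↥(⨆ b : {b : A // b ∉ E}, N ⊓ ψ b) :=
    fun hd => hNp (hd.trans (Subgroup.card_dvd_of_le hN₀N))
  have hN₀n := normalizes hAp E hE ι ψ hF hWp _ N hN₀I hN₀p hn hDK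
  have hEq : (⨆ b : {b : A // b ∉ E}, N ⊓ ψ b) = N := hmin _ hN₀0 hN₀N hN₀n hN₀I
  intro x hx
  obtain ⟨y, hy, n, hnN, rfl⟩ := quot_step hAp E ι ψ hF hWp ih N hN0 hNW hn hNI a ha x hx
  have hn0 : n ∈ (⨆ b : {b : A // b ∉ E}, N ⊓ ψ b) := by rw [hEq]; exact hnN
  refine (ψ a).mul_mem hy (hfix a ha ⟨hn0, ?_⟩)
  have h1 := hF.cent a ha hy
  have h2 : y * n ∈ Subgroup.centralizer {ι a} := hx.2
  have h3 : n = y⁻¹ * (y * n) := by group
  rw [h3]
  exact Subgroup.mul_mem _ (Subgroup.inv_mem _ h1) h2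

theorem step [Finite A] (hAp : ∀ a : A, a ^ p = 1) (E : Subgroup A)
    (hE : p ^ 3 * Nat.card E ≤ Nat.card A) (ι : A →* G) (ψ : A → Subgroup G)
    (hF : Fun E ι ψ) [hS : Group.IsSolvable (clos E ψ)] (hWp : ¬ p ∣ Nat.card (clos E ψ))
    (ih : IH.{u, v} p E (Nat.card (clos E ψ))) (a : A) (ha : a ∉ E) :
    clos E ψ ⊓ Subgroup.centralizer {ι a} ≤ ψ a := by
  by_cases hW0 : clos E ψ = ⊥
  · rw [hW0]; exact inf_le_left.trans bot_le
  obtain ⟨N, hN0, hNW, hn, hNI, hmin⟩ :=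
    min_exists ι (clos E ψ) (clos E ψ) hW0 Subgroup.le_normalizer hF.clos_AI
  by_cases hc : ∃ a₀, a₀ ∉ E ∧ N ⊓ ψ a₀ ≠ ⊥
  · obtain ⟨a₀, ha₀, hNa₀⟩ := hc
    exact case1 hAp E hE ι ψ hF hWp ih N hN0 hNW hn hNI hmin a₀ ha₀ hNa₀ a ha
  push Not at hc
  obtain ⟨c₂, hc₂⟩ := exists_c2 hAp E hE 1
  obtain ⟨c₁, hc₁⟩ := exists_c1 hAp E hE 1 c₂
  have hgen : ∀ X Y : Subgroup G, AI ι X → X ≤ clos E ψ →
      (∀ c, c ∉ E → X ⊓ Subgroup.centralizer {ι c} ≤ Y) → X ≤ Y := by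
    intro X Y hXI hXW hXY
    have hXp : ¬ p ∣ Nat.card X := fun hd => hWp (hd.trans (Subgroup.card_dvd_of_le hXW))
    refine (gen hAp ι X hXp hXI c₁ c₂).trans
      (sup_le (hXY c₂ ?_) (iSup₂_le fun j _ => hXY _ ?_))
    · simpa using hc₂ 0
    · simpa using hc₁ j 0
  by_cases h2 : ∃ K₁ : Subgroup G, N ≤ K₁ ∧ K₁ ≤ clos E ψ ∧ K₁ ≠ N ∧ K₁ ≠ clos E ψ ∧
      clos E ψ ≤ Subgroup.normalizer (K₁ : Set G) ∧ AI ι K₁
  · obtain ⟨K₁, hNK, hKW, hKN, hKW', hKn, hKI⟩ := h2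
    have hF₁ : Fun E ι (fun b => ψ b ⊓ K₁) :=
      ⟨fun b hb => inf_le_left.trans (hF.cent b hb), fun b hb => (hF.inv b hb).inf hKI,
        fun b hb c hc' => by
          rintro x ⟨⟨hx1, hx2⟩, hx3⟩
          exact ⟨hF.bal b hb c hc' ⟨hx1, hx3⟩, hx2⟩⟩
    have hW₁K : clos E (fun b => ψ b ⊓ K₁) ≤ K₁ := iSup_le fun b => inf_le_right
    have hW₁W : clos E (fun b => ψ b ⊓ K₁) ≤ clos E ψ := hW₁K.trans hKW
    have hlt : Nat.card (clos E (fun b => ψ b ⊓ K₁)) < Nat.card (clos E ψ) :=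
      lt_of_le_of_lt (Subgroup.card_le_of_le hW₁K)
        (lt_of_le_of_ne (Subgroup.card_le_of_le hKW)
          (fun h => hKW' (Subgroup.eq_of_le_of_card_ge hKW h.ge)))
    have hS₁ : Group.IsSolvable (clos E (fun b => ψ b ⊓ K₁)) :=
      Group.isSolvable_of_isSolvable_injective (Subgroup.inclusion_injective hW₁W)
    have hW₁p : ¬ p ∣ Nat.card (clos E (fun b => ψ b ⊓ K₁)) :=
      fun hd => hWp (hd.trans (Subgroup.card_dvd_of_le hW₁W))
    have h₁ := ih G ι (fun b => ψ b ⊓ K₁) hF₁ hS₁ hW₁p hlt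
    have hDK : ∀ e, e ∉ E →
        clos E (fun b => ψ b ⊓ K₁) ⊓ Subgroup.centralizer {ι e} = ψ e ⊓ K₁ := by
      intro e he
      apply le_antisymm (h₁ e he)
      exact le_inf (le_clos E (fun b => ψ b ⊓ K₁) he) (inf_le_left.trans (hF.cent e he))
    have hW₁n := normalizes hAp E hE ι ψ hF hWp (clos E (fun b => ψ b ⊓ K₁)) K₁
      hF₁.clos_AI hW₁p hKn hDK
    have hW₁0 : clos E (fun b => ψ b ⊓ K₁) ≠ ⊥ := by
      intro h0
      apply hKN
      refine le_antisymm ?_ hNK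
      apply hgen K₁ N hKI hKW
      intro c hc' x hx
      obtain ⟨y, hy, n, hnN, rfl⟩ :=
        quot_step hAp E ι ψ hF hWp ih N hN0 hNW hn hNI c hc' x ⟨hKW hx.1, hx.2⟩
      have hyK : y ∈ K₁ := by
        have h5 : y = (y * n) * n⁻¹ := by group
        rw [h5]; exact K₁.mul_mem hx.1 (K₁.inv_mem (hNK hnN))
      have hy1 : y ∈ clos E (fun b => ψ b ⊓ K₁) :=
        le_clos E (fun b => ψ b ⊓ K₁) hc' ⟨hy, hyK⟩
      rw [h0, Subgroup.mem_bot] at hy1
      rw [hy1, one_mul]; exact hnN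
    obtain ⟨N', hN'0, hN'W₁, hN'n, hN'I, hN'min⟩ :=
      min_exists ι (clos E ψ) (clos E (fun b => ψ b ⊓ K₁)) hW₁0 hW₁n hF₁.clos_AI
    have hN'W : N' ≤ clos E ψ := hN'W₁.trans hW₁W
    have hex : ∃ c, c ∉ E ∧ N' ⊓ ψ c ≠ ⊥ := by
      by_contra hcon
      push Not at hcon
      apply hN'0
      rw [eq_bot_iff]
      apply hgen N' ⊥ hN'I hN'W
      intro c hc'
      rw [← hcon c hc']
      refine le_inf inf_le_left ?_
      exact (inf_le_inf_right _ hN'W₁).trans ((h₁ c hc').trans inf_le_left)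
    obtain ⟨c, hc', hN'c⟩ := hex
    exact case1 hAp E hE ι ψ hF hWp ih N' hN'0 hN'W hN'n hN'I hN'min c hc' hN'c a ha
  · push Not at h2
    exfalso
    have h2' : ∀ K₁ : Subgroup G, N ≤ K₁ → K₁ ≤ clos E ψ →
        clos E ψ ≤ Subgroup.normalizer (K₁ : Set G) → AI ι K₁ → K₁ = N ∨ K₁ = clos E ψ := by
      intro K₁ h1 h2'' h3 h4
      by_contra hcon
      push Not at hcon
      exact h2 K₁ h1 h2'' hcon.1 hcon.2 h3 h4
    have hNW' : N ≠ clos E ψ := by
      intro hEq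
      apply hW0
      rw [eq_bot_iff]
      refine iSup_le fun b => ?_
      rw [← hc b.1 b.2]
      exact le_inf (hEq ▸ le_clos E ψ b.2) le_rfl
    have hcomm : ⁅clos E ψ, clos E ψ⁆ ≤ N := by
      have hK := h2' (N ⊔ ⁅clos E ψ, clos E ψ⁆) le_sup_left
        (sup_le hNW (Subgroup.commutator_le_self (clos E ψ)))
        ((le_inf hn (Subgroup.le_normalizer.trans
          (normalizer_le_normalizer_commutator (clos E ψ)))).trans
          (Subgroup.normalizer_inf_normalizer_le_normalizer_sup _ _))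
        (hNI.sup hF.clos_AI.commutator)
      rcases hK with hK | hK
      · rw [← hK]; exact le_sup_right
      · exact absurd hK (sup_commutator_ne (clos E ψ) N hNW hNW' hn)
    have hY : ∀ b, b ∉ E → ψ b = ⊥ ∨ N ⊔ ψ b = clos E ψ := by
      intro b hb
      have hYW : N ⊔ ψ b ≤ clos E ψ := sup_le hNW (le_clos E ψ hb)
      rcases h2' (N ⊔ ψ b) le_sup_left hYW
        (normalizer_of_commutator_le (clos E ψ) _ hYW (hcomm.trans le_sup_left))
        (hNI.sup (hF.inv b hb)) with h | h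
      · left
        rw [eq_bot_iff, ← hc b hb]
        exact le_inf (h ▸ le_sup_right) le_rfl
      · right; exact h
    have hle : ∀ e, e ∉ E → ∀ f, f ∉ E → N ⊔ ψ f = clos E ψ → ψ e ≤ ψ f := by
      intro e he f hf hfW y hy
      have hyW : y ∈ clos E ψ := le_clos E ψ he hy
      rw [← hfW, sup_comm] at hyW
      have hset : ((ψ f ⊔ N : Subgroup G) : Set G) = (ψ f : Set G) * (N : Set G) :=
        Subgroup.coe_mul_of_left_le_normalizer_right (ψ f) N ((le_clos E ψ hf).trans hn)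
      have hyW' : y ∈ (ψ f : Set G) * (N : Set G) := hset ▸ hyW
      obtain ⟨z, hz, n, hnN, rfl⟩ := Set.mem_mul.mp hyW'
      have hzf : z * ι f = ι f * z :=
        Subgroup.mem_centralizer_singleton_iff.mp (hF.cent f hf hz)
      have h1 : (z * n)⁻¹ * (ι f * (z * n) * (ι f)⁻¹) ∈ N ⊓ ψ e := by
        refine ⟨?_, (ψ e).mul_mem ((ψ e).inv_mem hy) (hF.inv e he f _ hy)⟩
        have h6 : ι f * (z * n) * (ι f)⁻¹ = z * (ι f * n * (ι f)⁻¹) := by
          calc ι f * (z * n) * (ι f)⁻¹ = (ι f * z) * n * (ι f)⁻¹ := by group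
            _ = (z * ι f) * n * (ι f)⁻¹ := by rw [hzf]
            _ = z * (ι f * n * (ι f)⁻¹) := by group
        have h7 : (z * n)⁻¹ * (ι f * (z * n) * (ι f)⁻¹) = n⁻¹ * (ι f * n * (ι f)⁻¹) := by
          rw [h6]; group
        rw [h7]
        exact N.mul_mem (N.inv_mem hnN) (hNI f n hnN)
      rw [hc e he, Subgroup.mem_bot] at h1
      refine hF.bal e he f hf ⟨hy, Subgroup.mem_centralizer_singleton_iff.mpr ?_⟩
      have h3 : ι f * (z * n) * (ι f)⁻¹ = z * n := by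
        calc ι f * (z * n) * (ι f)⁻¹
            = (z * n) * ((z * n)⁻¹ * (ι f * (z * n) * (ι f)⁻¹)) := by group
          _ = z * n := by rw [h1, mul_one]
      calc z * n * ι f = (ι f * (z * n) * (ι f)⁻¹) * ι f := by rw [h3]
        _ = ι f * (z * n) := by group
    have hex : ∃ e₀, e₀ ∉ E ∧ ψ e₀ ≠ ⊥ := by
      by_contra hcon
      push Not at hcon
      apply hW0
      rw [eq_bot_iff]
      exact iSup_le fun b => (hcon b.1 b.2).le
    obtain ⟨e₀, he₀, hψe₀⟩ := hex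
    have he₀W : N ⊔ ψ e₀ = clos E ψ := (hY e₀ he₀).resolve_left hψe₀
    have hWle : clos E ψ ≤ ψ e₀ := iSup_le fun b => hle b.1 b.2 e₀ he₀ he₀W
    apply hN0
    rw [eq_bot_iff, ← hc e₀ he₀]
    exact le_inf le_rfl (hNW.trans hWle)

theorem all_IH [Finite A] (hAp : ∀ a : A, a ^ p = 1) (E : Subgroup A)
    (hE : p ^ 3 * Nat.card E ≤ Nat.card A) : ∀ n : ℕ, IH.{u, v} p E n := by
  intro n
  induction n using Nat.strong_induction_on with
  | _ n ih =>
    intro G' _ _ ι' ψ' hF' hS' hWp' hlt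
    exact step hAp E hE ι' ψ' hF' hWp' (ih _ hlt)

/-- **Solvable signalizer functor theorem, solvable `p'` closure case.** -/
theorem main [Finite A] (hAp : ∀ a : A, a ^ p = 1) (E : Subgroup A)
    (hE : p ^ 3 * Nat.card E ≤ Nat.card A) (ι : A →* G) (ψ : A → Subgroup G)
    (hF : Fun E ι ψ) (hS : Group.IsSolvable (clos E ψ)) (hWp : ¬ p ∣ Nat.card (clos E ψ))
    (a : A) (ha : a ∉ E) :
    clos E ψ ⊓ Subgroup.centralizer {ι a} ≤ ψ a :=
  all_IH hAp E hE (Nat.card (clos E ψ) + 1) G ι ψ hF hS hWp (Nat.lt_succ_self _) a ha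

end induct

section sub

/-- `main` for an elementary abelian `p`-subgroup `A` of `G` acting by conjugation: `ψ` is
defined on the elements of `A` outside `E₀ ≤ A`, with `p^3 * |E₀| ≤ |A|`, and all `ψ a` lie
in a solvable `p'`-subgroup `W`. -/
theorem main_sub {G : Type u} [Group G] [Finite G] {p : ℕ} [Fact p.Prime] (A : Subgroup G)
    (hcomm : ∀ a ∈ A, ∀ b ∈ A, a * b = b * a) (hAp : ∀ a ∈ A, a ^ p = 1) (E₀ : Subgroup G)
    (hE : p ^ 3 * Nat.card E₀ ≤ Nat.card A) (hE₀A : E₀ ≤ A) (ψ : G → Subgroup G)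
    (hcent : ∀ a ∈ A, a ∉ E₀ → ψ a ≤ Subgroup.centralizer {a})
    (hinv : ∀ a ∈ A, a ∉ E₀ → ∀ b ∈ A, ∀ x ∈ ψ a, b * x * b⁻¹ ∈ ψ a)
    (hbal : ∀ a ∈ A, a ∉ E₀ → ∀ b ∈ A, b ∉ E₀ → ψ a ⊓ Subgroup.centralizer {b} ≤ ψ b)
    (W : Subgroup G) (hW : ∀ a ∈ A, a ∉ E₀ → ψ a ≤ W) (hWsolv : Group.IsSolvable W)
    (hWp : ¬ p ∣ Nat.card W) (a : G) (haA : a ∈ A) (haE : a ∉ E₀) :
    (⨆ e : {e : G // e ∈ A ∧ e ∉ E₀}, ψ e) ⊓ Subgroup.centralizer {a} ≤ ψ a := by
  letI : CommGroup ↥A := { (inferInstance : Group ↥A) with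
    mul_comm := fun x y => Subtype.ext (hcomm x x.2 y y.2) }
  have hAp' : ∀ a : ↥A, a ^ p = 1 := fun a => Subtype.ext (hAp a a.2)
  have hcardE : Nat.card ↥(E₀.subgroupOf A) = Nat.card E₀ :=
    Nat.card_congr (Subgroup.subgroupOfEquivOfLe hE₀A).toEquiv
  have hF : Fun (E₀.subgroupOf A) A.subtype (fun a : ↥A => ψ (a : G)) :=
    ⟨fun a ha => hcent a a.2 (fun h => ha (Subgroup.mem_subgroupOf.mpr h)),
      fun a ha b x hx => hinv a a.2 (fun h => ha (Subgroup.mem_subgroupOf.mpr h)) b b.2 x hx,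
      fun a ha b hb => hbal a a.2 (fun h => ha (Subgroup.mem_subgroupOf.mpr h)) b b.2
        (fun h => hb (Subgroup.mem_subgroupOf.mpr h))⟩
  have hclosW : clos (E₀.subgroupOf A) (fun a : ↥A => ψ (a : G)) ≤ W :=
    iSup_le fun b => hW b.1 b.1.2 (fun h => b.2 (Subgroup.mem_subgroupOf.mpr h))
  have hS : Group.IsSolvable (clos (E₀.subgroupOf A) (fun a : ↥A => ψ (a : G))) :=
    Group.isSolvable_of_isSolvable_injective (Subgroup.inclusion_injective hclosW)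
  have hp' : ¬ p ∣ Nat.card (clos (E₀.subgroupOf A) (fun a : ↥A => ψ (a : G))) :=
    fun hd => hWp (hd.trans (Subgroup.card_dvd_of_le hclosW))
  have key := main hAp' (E₀.subgroupOf A) (by rw [hcardE]; exact hE) A.subtype _ hF hS hp'
    ⟨a, haA⟩ (fun h => haE (Subgroup.mem_subgroupOf.mp h))
  refine le_trans (inf_le_inf_right _ ?_) key
  exact iSup_le fun e => le_iSup (fun b : {b : ↥A // b ∉ E₀.subgroupOf A} => ψ ((b : ↥A) : G))
    ⟨⟨e.1, e.2.1⟩, fun h => e.2.2 (Subgroup.mem_subgroupOf.mp h)⟩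

end sub

end Cfsg.Agent.Lib.Helper22.SolvSig
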