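import Mathlib
import Cfsg.Agent.Lib.Helper52.SpStmt

set_option autoImplicit false

/-! S5171 piece [LC]: Levi conjugation, `mk 1 s` is conjugate in `Sp` to `mk 1 (A s Aᵀ)`. -/

namespace Cfsg.Agent.Lib.Helper22.SpLC

open Matrix Cfsg.Agent.Lib.Helper43.SpBasic Cfsg.Agent.Lib.Helper43.SpSylow
open Cfsg.Agent.Lib.Helper43.PSLnUT (IsUT isUT_one)

universe u

theorem leviConj (m : ℕ) (F : Type u) [Field F] [Fintype F] (A s : Matrix (Fin m) (Fin m) F)
    (hA : IsUnit A.det) (hs : s.IsSymm) (hs' : (A * s * Aᵀ).IsSymm) :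
    ∃ g : Matrix.symplecticGroup (Fin m) F,
      g * mk 1 s isUT_one hs * g⁻¹ = mk 1 (A * s * Aᵀ) isUT_one hs' := by
  refine ⟨⟨mkMat A 0, mkMat_mem hA Matrix.isSymm_zero⟩, ?_⟩
  rw [mul_inv_eq_iff_eq_mul]
  apply Subtype.ext
  show mkMat A 0 * mkMat 1 s = mkMat 1 (A * s * Aᵀ) * mkMat A 0
  have hdet : IsUnit (Aᵀ).det := by rwa [Matrix.det_transpose]
  unfold mkMat
  rw [Matrix.fromBlocks_multiply, Matrix.fromBlocks_multiply]
  simp only [Matrix.transpose_one, inv_one, Matrix.mul_one, Matrix.one_mul, Matrix.mul_zero,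
    Matrix.zero_mul, add_zero, zero_add]
  rw [Matrix.mul_assoc (A * s), Matrix.mul_nonsing_inv _ hdet, Matrix.mul_one]

theorem main : Cfsg.Agent.Lib.Helper52.SpStmt.LeviConj.{u} := by
  intro m F _ _ A s hA hs hs'
  exact leviConj m F A s hA hs hs'

end Cfsg.Agent.Lib.Helper22.SpLC
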